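import Cfsg.Agent.UnipCount.Point

/-!
# The number of nilpotent endomorphisms
-/

set_option autoImplicit false
set_option linter.style.haveILetI false
set_option linter.unusedSectionVars false

noncomputable section

open Module

namespace Cfsg.Agent.UnipCount

universe u v

variable {F : Type u} [Field F] [Fintype F]

/-- A functional that is `1` at a non-zero vector. -/
theorem exists_functional {V : Type v} [AddCommGroup V] [Module F V] {e : V} (he : e ≠ 0) :
    ∃ c : V →ₗ[F] F, c e = 1 := by
  obtain ⟨c, hc⟩ := Module.Projective.exists_dual_ne_zero F he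
  exact ⟨(c e)⁻¹ • c, inv_mul_cancel₀ hc⟩

/-- The splitting of `V` given by a functional. -/
def linSplit {V : Type v} [AddCommGroup V] [Module F V] (e : V) (c : V →ₗ[F] F) (hc : c e = 1) :
    Split F V (LinearMap.ker c) where
  M := ⊤
  e := e
  c := c
  ι := (LinearMap.ker c).subtype
  π :=
    { toFun := fun x => ⟨x - c x • e, by simp [LinearMap.mem_ker, hc]⟩
      map_add' := fun x y => Subtype.ext (show x + y - c (x + y) • e = (x - c x • e) + (y - c y • e) by
        rw [map_add, add_smul]; abel)
      map_smul' := fun a x => Subtype.ext (show a • x - c (a • x) • e = a • (x - c x • e) by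
        rw [map_smul, smul_sub, smul_eq_mul, mul_smul]) }
  e_mem := Submodule.mem_top
  ι_mem := fun _ => Submodule.mem_top
  c_e := hc
  π_e := Subtype.ext (show e - c e • e = 0 by rw [hc, one_smul, sub_self])
  π_ι := fun y => Subtype.ext (show (y : V) - c (y : V) • e = y by
    rw [show c (y : V) = 0 from y.2, zero_smul, sub_zero])
  c_ι := fun y => y.2
  decomp := fun x _ => (sub_add_cancel x (c x • e)).symm

theorem finrank_ker_functional {V : Type v} [AddCommGroup V] [Module F V] [FiniteDimensional F V]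
    {e : V} {c : V →ₗ[F] F} (hc : c e = 1) : finrank F (LinearMap.ker c) + 1 = finrank F V := by
  have h := LinearMap.finrank_range_add_finrank_ker c
  rw [LinearMap.range_eq_top.2 fun a => ⟨a • e, by rw [map_smul, hc, smul_eq_mul, mul_one]⟩, finrank_top,
    finrank_self, add_comm] at h
  exact h

/-- `ssum` over all subspaces of `wt * q ^ ((n-1)(n-d))` vanishes. -/
theorem linear_identity (n : ℕ) : ∀ {V : Type v} [AddCommGroup V] [Module F V] [Finite V],
    finrank F V = n + 1 → ssum (fun _ : Submodule F V => True)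
      (fun d => wt (Fintype.card F) d * (Fintype.card F : ℚ) ^ ((n : ℤ) * ((n : ℤ) + 1 - d))) = 0 := by
  have hq : (Fintype.card F : ℚ) ≠ 0 := Nat.cast_ne_zero.2 Fintype.card_ne_zero
  induction n with
  | zero =>
    intro V _ _ _ hV
    haveI : FiniteDimensional F V := Module.Finite.of_finite
    haveI : Nontrivial V := Module.nontrivial_of_finrank_pos (R := F) (by omega)
    obtain ⟨e, he⟩ := exists_ne (0 : V)
    obtain ⟨c, hc⟩ := exists_functional (F := F) he
    haveI : Finite (LinearMap.ker c) := Subtype.finite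
    rw [(linSplit e c hc).ssum_eq (fun _ _ => le_top) (Q := fun _ => True) (fun _ => Iff.rfl) fun _ _ => Iff.rfl]
    refine ssum_zero _ _ fun d => ?_
    rw [wt_succ]
    simp
  | succ n ih =>
    intro V _ _ _ hV
    haveI : FiniteDimensional F V := Module.Finite.of_finite
    haveI : Nontrivial V := Module.nontrivial_of_finrank_pos (R := F) (by omega)
    obtain ⟨e, he⟩ := exists_ne (0 : V)
    obtain ⟨c, hc⟩ := exists_functional (F := F) he
    haveI : Finite (LinearMap.ker c) := Subtype.finite
    have hk : finrank F (LinearMap.ker c) = n + 1 := by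
      have := finrank_ker_functional hc
      omega
    rw [(linSplit e c hc).ssum_eq (fun _ _ => le_top) (Q := fun _ => True) (fun _ => Iff.rfl) fun _ _ => Iff.rfl,
      ssum_congr (fun _ => Iff.rfl) (K := fun d => ((Fintype.card F : ℚ) ^ (2 * (n : ℤ) + 2) -
        (Fintype.card F : ℚ) ^ ((n : ℤ) + 1)) *
          (wt (Fintype.card F) d * (Fintype.card F : ℚ) ^ ((n : ℤ) * ((n : ℤ) + 1 - d)))) fun d => ?_,
      ssum_mul, ih hk, mul_zero]
    rw [wt_succ, sub_mul]
    have h1 : (Fintype.card F : ℚ) ^ d = (Fintype.card F : ℚ) ^ (d : ℤ) := (zpow_natCast _ _).symm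
    have e1 : (Fintype.card F : ℚ) ^ (d : ℤ) *
        (Fintype.card F : ℚ) ^ (((n + 1 : ℕ) : ℤ) * (((n + 1 : ℕ) : ℤ) + 1 - (d : ℤ))) =
        (Fintype.card F : ℚ) ^ (2 * (n : ℤ) + 2) * (Fintype.card F : ℚ) ^ ((n : ℤ) * ((n : ℤ) + 1 - d)) := by
      rw [← zpow_add₀ hq, ← zpow_add₀ hq]; congr 1; push_cast; ring
    have e2 : (Fintype.card F : ℚ) ^ (d : ℤ) *
        (Fintype.card F : ℚ) ^ (((n + 1 : ℕ) : ℤ) * (((n + 1 : ℕ) : ℤ) + 1 - ((d + 1 : ℕ) : ℤ))) =
        (Fintype.card F : ℚ) ^ ((n : ℤ) + 1) * (Fintype.card F : ℚ) ^ ((n : ℤ) * ((n : ℤ) + 1 - d)) := by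
      rw [← zpow_add₀ hq, ← zpow_add₀ hq]; congr 1; push_cast; ring
    rw [h1]
    linear_combination (wt (Fintype.card F) d) * e1 - (wt (Fintype.card F) d) * e2

/-- Nilpotent endomorphisms killing a subspace. -/
abbrev NilKilling {V : Type v} [AddCommGroup V] [Module F V] (W : Submodule F V) : Type v :=
  {N : Module.End F V // IsNilpotent N ∧ ∀ x ∈ W, N x = 0}

theorem exists_mem_ker {V : Type v} [AddCommGroup V] [Module F V] [Nontrivial V] {N : Module.End F V}
    (hN : IsNilpotent N) : ∃ e : V, e ≠ 0 ∧ N e = 0 := by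
  by_contra! h
  obtain ⟨k, hk⟩ := hN
  obtain ⟨x, hx⟩ := exists_ne (0 : V)
  have : ∀ i, (N ^ i) x ≠ 0 := by
    intro i
    induction i with
    | zero => simpa using hx
    | succ i ih => rw [pow_succ', Module.End.mul_apply]; exact h _ ih
  exact this k (by rw [hk, LinearMap.zero_apply])

theorem card_killing_step {V : Type v} [AddCommGroup V] [Module F V] [Finite V] {W : Submodule F V} {e : V}
    (he : e ∈ W) {c : V →ₗ[F] F} (hc : c e = 1) :
    Nat.card (NilKilling W) = Nat.card (NilKilling (W.map (linSplit e c hc).π)) *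
      Fintype.card F ^ (finrank F (LinearMap.ker c) - finrank F (W.map (linSplit e c hc).π)) := by
  classical
  haveI : FiniteDimensional F V := Module.Finite.of_finite
  haveI : Finite (LinearMap.ker c) := Subtype.finite
  haveI : FiniteDimensional F (LinearMap.ker c) := Module.Finite.of_finite
  set D := linSplit e c hc
  set W' := W.map D.π
  have hup : D.up W' = W := D.up_eq le_top he
  have hWe : ∀ N : NilKilling W, N.1 e = 0 := fun N => N.2.2 e he
  have hdec : ∀ x, x = D.ι (D.π x) + D.c x • e := fun x => D.decomp x Submodule.mem_top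
  have hker : Nat.card W'.dualAnnihilator = Fintype.card F ^ (finrank F (LinearMap.ker c) - finrank F W') := by
    have := Subspace.finrank_add_finrank_dualAnnihilator_eq W'
    rw [Module.natCard_eq_pow_finrank (K := F), Nat.card_eq_fintype_card]
    congr 1
    omega
  rw [← hker, ← Nat.card_prod]
  refine Nat.card_congr
    { toFun := fun N => (⟨D.π.comp (N.1.comp D.ι), ?_, ?_⟩, ⟨D.c.comp (N.1.comp D.ι), ?_⟩)
      invFun := fun a => ⟨D.ι.comp (a.1.1.comp D.π) + ((a.2.1 : Module.Dual F _).comp D.π).smulRight e, ?_, ?_⟩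
      left_inv := fun N => Subtype.ext (LinearMap.ext fun x => ?_)
      right_inv := fun a => Prod.ext (Subtype.ext (LinearMap.ext fun y => ?_)) (Subtype.ext (LinearMap.ext fun y => ?_)) }
  · obtain ⟨k, hk⟩ := N.2.1
    refine ⟨k, LinearMap.ext fun y => ?_⟩
    have hsemi : ∀ (i : ℕ) (x : V), ((D.π.comp (N.1.comp D.ι)) ^ i) (D.π x) = D.π ((N.1 ^ i) x) := by
      intro i
      induction i with
      | zero => intro x; simp
      | succ i ih =>
        intro x
        rw [pow_succ, pow_succ, Module.End.mul_apply, Module.End.mul_apply, ← ih]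
        congr 1
        show D.π (N.1 (D.ι (D.π x))) = D.π (N.1 x)
        conv_rhs => rw [hdec x, map_add, map_smul, hWe, smul_zero, add_zero]
    rw [← D.π_ι y, hsemi, hk, LinearMap.zero_apply, map_zero, LinearMap.zero_apply]
  · intro y hy
    show D.π (N.1 (D.ι y)) = 0
    rw [N.2.2 _ (hup ▸ D.mem_up.2 ⟨D.ι_mem y, by rwa [D.π_ι]⟩), map_zero]
  · rw [Submodule.mem_dualAnnihilator]
    intro y hy
    show D.c (N.1 (D.ι y)) = 0
    rw [N.2.2 _ (hup ▸ D.mem_up.2 ⟨D.ι_mem y, by rwa [D.π_ι]⟩), map_zero]
  · obtain ⟨k, hk⟩ := a.1.2.1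
    set N := D.ι.comp (a.1.1.comp D.π) + ((a.2.1 : Module.Dual F _).comp D.π).smulRight e
    have hsemi : ∀ (i : ℕ) (x : V), D.π ((N ^ i) x) = (a.1.1 ^ i) (D.π x) := by
      intro i
      induction i with
      | zero => intro x; simp
      | succ i ih =>
        intro x
        rw [pow_succ', pow_succ', Module.End.mul_apply, Module.End.mul_apply, ← ih]
        show D.π (D.ι _ + (_ : F) • e) = _
        rw [map_add, D.π_ι, map_smul, show D.π e = 0 from D.π_e, smul_zero, add_zero]
        rfl
    refine ⟨k + 1, LinearMap.ext fun x => ?_⟩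
    have h0 : D.π ((N ^ k) x) = 0 := by rw [hsemi, hk, LinearMap.zero_apply]
    rw [pow_succ', Module.End.mul_apply, LinearMap.zero_apply]
    show D.ι (a.1.1 (D.π ((N ^ k) x))) + a.2.1 (D.π ((N ^ k) x)) • e = 0
    rw [h0, map_zero, map_zero, map_zero, zero_smul, add_zero]
  · intro x hx
    have hπ : D.π x ∈ W' := Submodule.mem_map_of_mem hx
    show D.ι (a.1.1 (D.π x)) + a.2.1 (D.π x) • e = 0
    rw [a.1.2.2 _ hπ, (Submodule.mem_dualAnnihilator _).1 a.2.2 _ hπ, map_zero, zero_smul, add_zero]
  · show D.ι (D.π (N.1 (D.ι (D.π x)))) + D.c (N.1 (D.ι (D.π x))) • e = N.1 x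
    rw [← hdec]
    conv_rhs => rw [hdec x, map_add, map_smul, hWe, smul_zero, add_zero]
  · show D.π (D.ι (a.1.1 (D.π (D.ι y))) + a.2.1 (D.π (D.ι y)) • e) = a.1.1 y
    rw [map_add, D.π_ι, D.π_ι, map_smul, show D.π e = 0 from D.π_e, smul_zero, add_zero]
  · show D.c (D.ι (a.1.1 (D.π (D.ι y))) + a.2.1 (D.π (D.ι y)) • e) = a.2.1 y
    rw [map_add, D.c_ι, D.π_ι, map_smul, show D.c e = 1 from D.c_e, smul_eq_mul, mul_one, zero_add]

/-- Nilpotent endomorphisms killing a subspace of dimension `d`: `q ^ ((n-1)(n-d))`. -/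
theorem card_killing (n : ℕ) : ∀ {V : Type v} [AddCommGroup V] [Module F V] [Finite V],
    finrank F V = n → ∀ W : Submodule F V,
      (Nat.card (NilKilling W) : ℚ) = (Fintype.card F : ℚ) ^ (((n : ℤ) - 1) * ((n : ℤ) - finrank F W)) := by
  have hq : (Fintype.card F : ℚ) ≠ 0 := Nat.cast_ne_zero.2 Fintype.card_ne_zero
  induction n with
  | zero =>
    intro V _ _ _ hV W
    haveI : FiniteDimensional F V := Module.Finite.of_finite
    haveI : Subsingleton V := Module.finrank_zero_iff.1 hV
    haveI : Subsingleton (NilKilling W) :=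
      ⟨fun a b => Subtype.ext (LinearMap.ext fun x => Subsingleton.elim _ _)⟩
    haveI : Nonempty (NilKilling W) := ⟨⟨0, IsNilpotent.zero, fun _ _ => rfl⟩⟩
    rw [Nat.card_unique, Subsingleton.elim W ⊥, finrank_bot]
    simp
  | succ n ih =>
    intro V _ _ _ hV
    haveI : FiniteDimensional F V := Module.Finite.of_finite
    haveI : Nontrivial V := Module.nontrivial_of_finrank_pos (R := F) (by omega)
    have step : ∀ W : Submodule F V, W ≠ ⊥ → (Nat.card (NilKilling W) : ℚ) =
        (Fintype.card F : ℚ) ^ ((((n + 1 : ℕ) : ℤ) - 1) * (((n + 1 : ℕ) : ℤ) - finrank F W)) := by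
      intro W hW
      obtain ⟨e, heW, he⟩ := Submodule.exists_mem_ne_zero_of_ne_bot hW
      obtain ⟨c, hc⟩ := exists_functional (F := F) he
      haveI : Finite (LinearMap.ker c) := Subtype.finite
      haveI : FiniteDimensional F (LinearMap.ker c) := Module.Finite.of_finite
      have hk : finrank F (LinearMap.ker c) = n := by
        have := finrank_ker_functional hc
        omega
      have hd : finrank F W = finrank F (W.map (linSplit e c hc).π) + 1 := by
        conv_lhs => rw [← (linSplit e c hc).up_eq le_top heW]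
        exact (linSplit e c hc).finrank_up _
      have hle := Submodule.finrank_le (W.map (linSplit e c hc).π)
      rw [card_killing_step heW hc, Nat.cast_mul, ih hk, Nat.cast_pow, ← zpow_natCast, ← zpow_add₀ hq, hk, hd,
        Nat.cast_sub (hk ▸ hle)]
      congr 1
      push_cast
      ring
    intro W
    by_cases hW : W = ⊥
    swap
    · exact step W hW
    subst hW
    classical
    haveI : Fintype (Submodule F V) := Fintype.ofFinite _
    haveI : Finite (Module.End F V) := Finite.of_injective (fun φ => (φ : V → V)) DFunLike.coe_injective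
    let A := NilKilling (⊥ : Submodule F V)
    haveI : Fintype A := Fintype.ofFinite _
    have h0 : ∀ a : A, ssum (fun W => W ≤ LinearMap.ker a.1) (fun d => wt (Fintype.card F) d) = 0 := by
      intro a
      obtain ⟨e, he, hNe⟩ := exists_mem_ker a.2.1
      obtain ⟨c, hc⟩ := exists_functional (F := F) he
      haveI : Finite (LinearMap.ker c) := Subtype.finite
      set D := linSplit e c hc
      have hmem : ∀ x, x ∈ LinearMap.ker a.1 ↔ D.ι (D.π x) ∈ LinearMap.ker a.1 := fun x => by
        have hxe := D.decomp x Submodule.mem_top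
        rw [LinearMap.mem_ker, LinearMap.mem_ker]
        conv_lhs => rw [hxe, map_add, map_smul, show a.1 D.e = 0 from hNe, smul_zero, add_zero]
      rw [D.ssum_eq (fun _ _ => le_top) (Q := fun W' => W' ≤ (LinearMap.ker a.1).comap D.ι)]
      · exact ssum_zero _ _ fun d => by rw [wt_succ]; ring
      · intro W'
        constructor
        · exact fun h y hy => h (D.mem_up.2 ⟨Submodule.mem_top, by rwa [D.π_ι]⟩)
        · exact fun h x hx => (hmem x).2 (h (D.mem_up.1 hx).2)
      · intro W' φ
        constructor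
        · intro h y hy
          have h1 := (hmem _).1 (h (D.mem_graph.2 ⟨⟨y, hy⟩, rfl⟩))
          rwa [map_add, map_smul, D.π_e, smul_zero, add_zero, D.π_ι] at h1
        · exact fun h x hx => (hmem x).2 (h (D.mem_up.1 (D.graph_le W' φ hx)).2)
    have hcount : ∀ W : Submodule F V, Nat.card {a : A // W ≤ LinearMap.ker a.1} = Nat.card (NilKilling W) := fun W =>
      Nat.card_congr
        { toFun := fun a => ⟨a.1.1, a.1.2.1, fun x hx => LinearMap.mem_ker.1 (a.2 hx)⟩
          invFun := fun N => ⟨⟨N.1, N.2.1, fun x hx => by rw [(Submodule.mem_bot F).1 hx, map_zero]⟩,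
            fun x hx => LinearMap.mem_ker.2 (N.2.2 x hx)⟩
          left_inv := fun a => rfl
          right_inv := fun N => rfl }
    have h1 := sum_ssum (fun (a : A) W => W ≤ LinearMap.ker a.1) fun d => wt (Fintype.card F) d
    rw [Finset.sum_eq_zero fun a _ => h0 a, finsum_eq_sum_of_fintype] at h1
    have h2 := linear_identity (F := F) n hV
    rw [ssum, finsum_eq_sum_of_fintype] at h2
    simp only [hcount, if_true] at h1 h2
    rw [← Finset.add_sum_erase _ _ (Finset.mem_univ (⊥ : Submodule F V))] at h1 h2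
    have h3 : ∀ W ∈ Finset.univ.erase (⊥ : Submodule F V),
        (Nat.card (NilKilling W) : ℚ) * wt (Fintype.card F) (finrank F W) =
          wt (Fintype.card F) (finrank F W) *
            (Fintype.card F : ℚ) ^ ((n : ℤ) * ((n : ℤ) + 1 - finrank F W)) := fun W hW => by
      rw [step W (Finset.ne_of_mem_erase hW), mul_comm]
      congr 2
      push_cast
      ring
    rw [Finset.sum_congr rfl h3] at h1
    rw [finrank_bot, wt_zero, mul_one] at h1
    rw [finrank_bot, wt_zero, one_mul] at h2
    rw [finrank_bot]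
    have h4 : ((((n + 1 : ℕ) : ℤ) - 1) * (((n + 1 : ℕ) : ℤ) - ((0 : ℕ) : ℤ))) =
        (n : ℤ) * ((n : ℤ) + 1 - ((0 : ℕ) : ℤ)) := by push_cast; ring
    rw [h4]
    linarith

/-- Fine–Herstein: the number of nilpotent endomorphisms. -/
theorem card_nilpotent {V : Type v} [AddCommGroup V] [Module F V] [Finite V] :
    Nat.card {N : Module.End F V // IsNilpotent N} =
      Fintype.card F ^ (finrank F V * (finrank F V - 1)) := by
  have h := card_killing (F := F) (finrank F V) rfl (⊥ : Submodule F V)
  have e : Nat.card {N : Module.End F V // IsNilpotent N} = Nat.card (NilKilling (⊥ : Submodule F V)) :=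
    Nat.card_congr (Equiv.subtypeEquivRight fun N => ⟨fun h => ⟨h, fun x hx => by
      rw [(Submodule.mem_bot F).1 hx, map_zero]⟩, fun h => h.1⟩)
  rw [finrank_bot, ← e] at h
  rw [← Nat.cast_inj (R := ℚ), h, Nat.cast_pow, ← zpow_natCast]
  congr 1
  rcases Nat.eq_zero_or_pos (finrank F V) with h0 | h0
  · simp [h0]
  · push_cast [Nat.cast_sub (show 1 ≤ finrank F V from h0)]
    ring

end Cfsg.Agent.UnipCount
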