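import Mathlib

/-!
# Elements of prime power order in characteristic `p`
-/

set_option autoImplicit false
set_option linter.style.haveILetI false

namespace Cfsg.Agent.UnipCount

theorem isNilpotent_sub_one_iff {G : Type*} [Monoid G] {R : Type*} [Ring R] (p : ℕ) [hp : Fact p.Prime]
    [CharP R p] (φ : G →* R) (hφ : Function.Injective φ) (g : G) :
    (∃ k : ℕ, orderOf g = p ^ k) ↔ IsNilpotent (φ g - 1) := by
  constructor
  · rintro ⟨k, hk⟩
    refine ⟨p ^ k, ?_⟩
    rw [sub_pow_char_pow_of_commute p k (Commute.one_right _), one_pow, ← map_pow, ← hk, pow_orderOf_eq_one,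
      map_one, sub_self]
  · rintro ⟨n, hn⟩
    obtain ⟨k, hk⟩ : ∃ k, n ≤ p ^ k := ⟨n, Nat.le_of_lt (Nat.lt_pow_self hp.out.one_lt)⟩
    have h1 : g ^ p ^ k = 1 := by
      refine hφ (sub_eq_zero.1 ?_)
      rw [map_one, map_pow, ← one_pow (M := R) (p ^ k), ← sub_pow_char_pow_of_commute p k (Commute.one_right _)]
      exact pow_eq_zero_of_le hk hn
    obtain ⟨j, -, hj⟩ := (Nat.dvd_prime_pow hp.out).1 (orderOf_dvd_of_pow_eq_one h1)
    exact ⟨j, hj⟩

theorem gl_unipotent_equiv {F : Type*} [Field F] (p : ℕ) [Fact p.Prime] [CharP F p] (n : ℕ) :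
    Nonempty ({g : GL (Fin n) F // ∃ k : ℕ, orderOf g = p ^ k} ≃ {N : Module.End F (Fin n → F) // IsNilpotent N}) := by
  rcases isEmpty_or_nonempty (Fin n) with h | h
  · haveI : Subsingleton (Module.End F (Fin n → F)) := ⟨fun a b => LinearMap.ext fun x => Subsingleton.elim _ _⟩
    haveI : Subsingleton (GL (Fin n) F) := ⟨fun a b => Units.ext (Subsingleton.elim _ _)⟩
    exact ⟨{ toFun := fun _ => ⟨0, IsNilpotent.zero⟩
             invFun := fun _ => ⟨1, 0, by rw [orderOf_one, pow_zero]⟩
             left_inv := fun a => Subtype.ext (Subsingleton.elim _ _)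
             right_inv := fun a => Subtype.ext (Subsingleton.elim _ _) }⟩
  let e := (Matrix.toLinAlgEquiv' (R := F) (n := Fin n))
  have hiff : ∀ g : GL (Fin n) F, (∃ k : ℕ, orderOf g = p ^ k) ↔ IsNilpotent (e ((g : Matrix (Fin n) (Fin n) F) - 1)) := by
    intro g
    rw [isNilpotent_sub_one_iff p (Units.coeHom (Matrix (Fin n) (Fin n) F)) Units.val_injective g]
    exact ⟨fun h => h.map e, fun h => by simpa using h.map e.symm⟩
  refine ⟨{ toFun := fun g => ⟨e ((g.1 : Matrix (Fin n) (Fin n) F) - 1), (hiff g.1).1 g.2⟩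
            invFun := fun N => ⟨((N.2.map e.symm).isUnit_one_add).unit, (hiff _).2 (by simpa using N.2)⟩
            left_inv := fun g => Subtype.ext (Units.ext (by simp))
            right_inv := fun N => Subtype.ext (by simp) }⟩

end Cfsg.Agent.UnipCount
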