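import Cfsg.Agent.UnipCount.Symplectic
import Cfsg.Agent.UnipCount.Order

/-!
# Unipotent elements of the symplectic matrix group
-/

set_option autoImplicit false
set_option linter.style.haveILetI false
set_option linter.unusedSectionVars false

noncomputable section

open Module
open scoped Matrix

namespace Cfsg.Agent.UnipCount

universe u

variable (F : Type u) [Field F] (m : ℕ)

/-- The standard alternating form. -/
def stdAlt : Alt F (Fin m ⊕ Fin m → F) where
  B := Matrix.toLinearMap₂' F (Matrix.J (Fin m) F)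
  alt x := by
    rw [Matrix.toLinearMap₂'_apply', Matrix.J, Matrix.fromBlocks_mulVec]
    simp [dotProduct, Matrix.neg_mulVec, Finset.sum_neg_distrib, mul_comm]
  nd x hx := by
    funext i
    have h := hx ((Matrix.J (Fin m) F) *ᵥ Pi.single i 1)
    rw [Matrix.toLinearMap₂'_apply', Matrix.mulVec_mulVec, Matrix.J_squared, Matrix.neg_mulVec, Matrix.one_mulVec,
      dotProduct_neg, dotProduct_single, mul_one, neg_eq_zero] at h
    exact h

theorem stdAlt_apply (x y : Fin m ⊕ Fin m → F) : (stdAlt F m).B x y = x ⬝ᵥ (Matrix.J (Fin m) F *ᵥ y) :=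
  Matrix.toLinearMap₂'_apply' _ _ _

theorem iso_iff (A : Matrix (Fin m ⊕ Fin m) (Fin m ⊕ Fin m) F) :
    A ∈ Matrix.symplecticGroup (Fin m) F ↔
      ∀ x y, (stdAlt F m).B (Matrix.toLinAlgEquiv' A x) (Matrix.toLinAlgEquiv' A y) = (stdAlt F m).B x y := by
  have key : ∀ x y, (stdAlt F m).B (Matrix.toLinAlgEquiv' A x) (Matrix.toLinAlgEquiv' A y) =
      x ⬝ᵥ ((Aᵀ * Matrix.J (Fin m) F * A) *ᵥ y) := fun x y => by
    rw [stdAlt_apply, Matrix.toLinAlgEquiv'_apply, Matrix.toLinAlgEquiv'_apply, ← Matrix.mulVec_mulVec,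
      ← Matrix.mulVec_mulVec, Matrix.dotProduct_mulVec x Aᵀ, Matrix.vecMul_transpose]
  constructor
  · intro hA x y
    rw [key, SymplecticGroup.mem_iff'.1 hA, stdAlt_apply]
  · intro h
    refine SymplecticGroup.mem_iff'.2 (Matrix.ext fun i j => ?_)
    have := h (Pi.single i 1) (Pi.single j 1)
    rw [key, stdAlt_apply, single_one_dotProduct, single_one_dotProduct, Matrix.mulVec_single_one,
      Matrix.mulVec_single_one] at this
    exact this

theorem card_symplectic_unipotent [Fintype F] (p : ℕ) [Fact p.Prime] [CharP F p] :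
    Nat.card {g : ↥(Matrix.symplecticGroup (Fin m) F) // ∃ k : ℕ, orderOf g = p ^ k} =
      Fintype.card F ^ (2 * m ^ 2) := by
  set A := stdAlt F m
  have hfin : finrank F (Fin m ⊕ Fin m → F) = 2 * m := by
    rw [Module.finrank_fintype_fun_eq_card, Fintype.card_sum, Fintype.card_fin, two_mul]
  have hbot : A.TI (⊥ : Submodule F (Fin m ⊕ Fin m → F)) := fun x hx y _ => by
    rw [(Submodule.mem_bot F).1 hx, map_zero, LinearMap.zero_apply]
  have h := card_uni m A hfin ⊥ hbot
  rw [finrank_bot, uval] at h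
  have h' : Nat.card (A.Uni ⊥) = Fintype.card F ^ (2 * m ^ 2) := by
    rw [← Nat.cast_inj (R := ℚ), h, Nat.cast_pow, ← zpow_natCast]
    congr 1
  rw [← h']
  rcases Nat.eq_zero_or_pos m with rfl | hm
  · haveI : Subsingleton (A.Uni ⊥) := ⟨fun a b => Subtype.ext (LinearMap.ext fun x => Subsingleton.elim _ _)⟩
    haveI : Nonempty (A.Uni ⊥) := ⟨⟨1, fun _ _ => rfl, by rw [sub_self]; exact IsNilpotent.zero, fun _ _ => rfl⟩⟩
    haveI : Subsingleton ↥(Matrix.symplecticGroup (Fin 0) F) := ⟨fun a b => Subtype.ext (Subsingleton.elim _ _)⟩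
    haveI : Nonempty {g : ↥(Matrix.symplecticGroup (Fin 0) F) // ∃ k : ℕ, orderOf g = p ^ k} :=
      ⟨⟨1, 0, by rw [orderOf_one, pow_zero]⟩⟩
    rw [Nat.card_unique, Nat.card_unique]
  haveI : Nonempty (Fin m ⊕ Fin m) := ⟨Sum.inl ⟨0, hm⟩⟩
  let e := (Matrix.toLinAlgEquiv' (R := F) (n := Fin m ⊕ Fin m))
  have hiff : ∀ g : ↥(Matrix.symplecticGroup (Fin m) F), (∃ k : ℕ, orderOf g = p ^ k) ↔
      IsNilpotent (e (g : Matrix (Fin m ⊕ Fin m) (Fin m ⊕ Fin m) F) - 1) := by
    intro g
    rw [isNilpotent_sub_one_iff p (Matrix.symplecticGroup (Fin m) F).subtype Subtype.val_injective g,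
      ← map_one e, ← map_sub]
    exact ⟨fun h => h.map e, fun h => by simpa using h.map e.symm⟩
  exact Nat.card_congr
    { toFun := fun g => ⟨e (g.1 : Matrix (Fin m ⊕ Fin m) (Fin m ⊕ Fin m) F), (iso_iff F m _).1 g.1.2, (hiff g.1).1 g.2,
        fun x hx => by rw [(Submodule.mem_bot F).1 hx, map_zero]⟩
      invFun := fun u => ⟨⟨e.symm u.1, (iso_iff F m _).2 (by simpa [e] using u.2.1)⟩,
        (hiff _).2 (by simpa using u.2.2.1)⟩
      left_inv := fun g => Subtype.ext (Subtype.ext (e.symm_apply_apply _))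
      right_inv := fun u => Subtype.ext (e.apply_symm_apply _) }

end Cfsg.Agent.UnipCount
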