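import Cfsg.Agent.ClassConj.JordanType
import Cfsg.Agent.UnipCount.Order

/-!
# Unipotent classes of `GL_n` and partitions
-/

set_option autoImplicit false
set_option linter.style.haveILetI false
set_option linter.unusedSectionVars false

noncomputable section

open Module
open Cfsg.Agent.ClassConj

namespace Cfsg.Agent.UnipCount

variable {F : Type*} [Field F] {n : ℕ}

theorem isConj_iff_layerDim {p : ℕ} (g g' : GL (Fin n) F)
    (hg : ((g : Matrix (Fin n) (Fin n) F) - 1) ^ p = 0) (hg' : ((g' : Matrix (Fin n) (Fin n) F) - 1) ^ p = 0) :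
    IsConj g g' ↔ ∀ k, Elusive.layerDim (Matrix.toLinAlgEquiv' ((g : Matrix (Fin n) (Fin n) F) - 1)) ⊤ k
      = Elusive.layerDim (Matrix.toLinAlgEquiv' ((g' : Matrix (Fin n) (Fin n) F) - 1)) ⊤ k := by
  set N := Matrix.toLinAlgEquiv' ((g : Matrix (Fin n) (Fin n) F) - 1)
  set N' := Matrix.toLinAlgEquiv' ((g' : Matrix (Fin n) (Fin n) F) - 1)
  constructor
  · intro h
    obtain ⟨c, hc⟩ := isConj_iff.1 h
    have hc' : (c : Matrix (Fin n) (Fin n) F) * g = g' * c := congrArg Units.val (mul_inv_eq_iff_eq_mul.1 hc)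
    refine layerDim_eq_of_kdim (kdim_top_conj
      ((LinearMap.GeneralLinearGroup.generalLinearEquiv F (Fin n → F)) (Matrix.GeneralLinearGroup.toLin c)) fun x => ?_)
    show (c : Matrix (Fin n) (Fin n) F).mulVec ((((g : Matrix (Fin n) (Fin n) F) - 1)).mulVec x)
      = (((g' : Matrix (Fin n) (Fin n) F) - 1)).mulVec ((c : Matrix (Fin n) (Fin n) F).mulVec x)
    rw [Matrix.mulVec_mulVec, Matrix.mulVec_mulVec, mul_sub, sub_mul, mul_one, one_mul, hc']
  · intro h
    obtain ⟨e, he⟩ := exists_conj_of_layerDim (N := N) (N' := N') (p := p)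
      (by rw [← map_pow, hg, map_zero]) (by rw [← map_pow, hg', map_zero]) h
    have hdet : (LinearMap.toMatrix' e.toLinearMap).det ≠ 0 := by
      rw [LinearMap.det_toMatrix']; exact (LinearEquiv.isUnit_det' e).ne_zero
    refine isConj_iff.2 ⟨Matrix.GeneralLinearGroup.mkOfDetNeZero _ hdet,
      mul_inv_eq_iff_eq_mul.2 (Units.ext (Matrix.ext_iff_mulVec.2 fun x => ?_))⟩
    have h1 : e (((g : Matrix (Fin n) (Fin n) F) - 1).mulVec x) = ((g' : Matrix (Fin n) (Fin n) F) - 1).mulVec (e x) := he x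
    rw [Matrix.sub_mulVec, Matrix.sub_mulVec, Matrix.one_mulVec, Matrix.one_mulVec, map_sub] at h1
    show (LinearMap.toMatrix' e.toLinearMap * (g : Matrix (Fin n) (Fin n) F)).mulVec x
      = ((g' : Matrix (Fin n) (Fin n) F) * LinearMap.toMatrix' e.toLinearMap).mulVec x
    rw [← Matrix.mulVec_mulVec, ← Matrix.mulVec_mulVec, LinearMap.toMatrix'_mulVec, LinearMap.toMatrix'_mulVec]
    exact sub_left_injective h1

theorem card_unipotent_classes [Fintype F] (p : ℕ) [Fact p.Prime] [CharP F p] (n : ℕ) :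
    Nat.card {C : ConjClasses (GL (Fin n) F) //
      ∃ g : GL (Fin n) F, (∃ k : ℕ, orderOf g = p ^ k) ∧ ConjClasses.mk g = C} = Fintype.card (Nat.Partition n) := by
  classical
  rcases Nat.eq_zero_or_pos n with rfl | hn
  · haveI : Subsingleton (GL (Fin 0) F) := ⟨fun a b => Units.ext (Subsingleton.elim _ _)⟩
    haveI : Subsingleton {C : ConjClasses (GL (Fin 0) F) //
        ∃ g : GL (Fin 0) F, (∃ k : ℕ, orderOf g = p ^ k) ∧ ConjClasses.mk g = C} := ⟨fun a b => by
      obtain ⟨g, -, hg⟩ := a.2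
      obtain ⟨g', -, hg'⟩ := b.2
      exact Subtype.ext (hg ▸ hg' ▸ congrArg _ (Subsingleton.elim g g'))⟩
    haveI : Nonempty {C : ConjClasses (GL (Fin 0) F) //
        ∃ g : GL (Fin 0) F, (∃ k : ℕ, orderOf g = p ^ k) ∧ ConjClasses.mk g = C} :=
      ⟨⟨_, 1, ⟨0, by rw [orderOf_one, pow_zero]⟩, rfl⟩⟩
    haveI : Subsingleton (Nat.Partition 0) := ⟨fun μ ν => Nat.Partition.ext (by
      have h : ∀ μ : Nat.Partition 0, μ.parts = 0 := fun μ => Multiset.eq_zero_of_forall_notMem fun a ha => by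
        have := Multiset.le_sum_of_mem ha
        rw [μ.parts_sum] at this
        have := μ.parts_pos ha
        omega
      rw [h μ, h ν])⟩
    rw [Nat.card_unique, Fintype.card_eq_one_iff.2 ⟨default, fun μ => Subsingleton.elim μ default⟩]
  haveI : Nonempty (Fin n) := ⟨⟨0, hn⟩⟩
  have hiff : ∀ g : GL (Fin n) F, (∃ k : ℕ, orderOf g = p ^ k) ↔
      IsNilpotent ((g : Matrix (Fin n) (Fin n) F) - 1) := fun g =>
    isNilpotent_sub_one_iff p (Units.coeHom (Matrix (Fin n) (Fin n) F)) Units.val_injective g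
  have hbound : ∀ {M : Matrix (Fin n) (Fin n) F}, IsNilpotent M → M ^ n = 0 := fun {M} h => by
    have h2 := Matrix.isNilpotent_charpoly_sub_pow_of_isNilpotent h
    rw [Fintype.card_fin] at h2
    have h3 := Matrix.aeval_self_charpoly M
    rw [sub_eq_zero.1 h2.eq_zero, map_pow, Polynomial.aeval_X] at h3
    exact h3
  have hmodel : ∀ μ : Nat.Partition n, ∃ g : GL (Fin n) F, ((g : Matrix (Fin n) (Fin n) F) - 1) ^ n = 0 ∧
      ∀ k, Elusive.layerDim (Matrix.toLinAlgEquiv' ((g : Matrix (Fin n) (Fin n) F) - 1)) ⊤ k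
        = μ.parts.countP fun b => k < b := by
    intro μ
    have aux : ∀ (ρ : Multiset ℕ) (N : ℕ), ρ.sum = N →
        ∃ A : Module.End F (Fin N → F), A ^ N = 0 ∧ ∀ k, Elusive.layerDim A ⊤ k = ρ.countP fun b => k < b := by
      rintro ρ _ rfl
      obtain ⟨A, h1, h2⟩ := Elusive.exists_nilpotent_model F ρ
      exact ⟨A, h2 _ fun a ha => Multiset.le_sum_of_mem ha, h1⟩
    obtain ⟨A, hA, hAl⟩ := aux μ.parts n μ.parts_sum
    set M := Matrix.toLinAlgEquiv'.symm A
    have hM : M ^ n = 0 := by rw [← map_pow, hA, map_zero]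
    obtain ⟨g, hg⟩ := (show IsNilpotent M from ⟨n, hM⟩).isUnit_one_add
    exact ⟨g, by rw [hg, add_sub_cancel_left, hM], fun k => by
      rw [hg, add_sub_cancel_left, AlgEquiv.apply_symm_apply, hAl]⟩
  choose g hg hgl using hmodel
  let f : Nat.Partition n → {C : ConjClasses (GL (Fin n) F) //
      ∃ g : GL (Fin n) F, (∃ k : ℕ, orderOf g = p ^ k) ∧ ConjClasses.mk g = C} :=
    fun μ => ⟨ConjClasses.mk (g μ), g μ, (hiff _).2 ⟨n, hg μ⟩, rfl⟩
  have hf : Function.Bijective f := by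
    constructor
    · intro μ ν e
      have h1 := (isConj_iff_layerDim (p := n) _ _ (hg _) (hg _)).1
        (ConjClasses.mk_eq_mk_iff_isConj.1 (congrArg Subtype.val e))
      refine Nat.Partition.ext (multiset_eq_of_countP (fun b hb => μ.parts_pos hb)
        (fun b hb => ν.parts_pos hb) fun k => ?_)
      rw [← hgl μ, ← hgl ν, h1]
    · rintro ⟨C, x, hx, rfl⟩
      have hxn : ((x : Matrix (Fin n) (Fin n) F) - 1) ^ n = 0 := hbound ((hiff x).1 hx)
      obtain ⟨μ, hμb, hμs, hμl⟩ := exists_blockSizes (N := Matrix.toLinAlgEquiv' ((x : Matrix (Fin n) (Fin n) F) - 1))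
        (p := n) (by rw [← map_pow, hxn, map_zero])
      rw [finrank_fin_fun] at hμs
      let P : Nat.Partition n := ⟨μ, fun hb => (hμb _ hb).1, hμs⟩
      exact ⟨P, Subtype.ext (ConjClasses.mk_eq_mk_iff_isConj.2
        ((isConj_iff_layerDim (p := n) _ _ (hg P) hxn).2 fun k => by rw [hgl, hμl]))⟩
  rw [← Nat.card_congr (Equiv.ofBijective f hf), Nat.card_eq_fintype_card]

end Cfsg.Agent.UnipCount
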