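import Mathlib

/-!
# Weighted sums over the subspaces of a finite space, split at a point

`wt q d = (-1)^d q^(d choose 2)` is the Moebius function of the subspace lattice; the only property used is
`wt q (d + 1) = - q^d * wt q d`.
-/

set_option autoImplicit false
set_option linter.style.haveILetI false
set_option linter.unusedSectionVars false

noncomputable section

open Module

namespace Cfsg.Agent.UnipCount

/-- The Moebius weight of a subspace of dimension `d`. -/
def wt (q : ℚ) (d : ℕ) : ℚ := (-1) ^ d * q ^ d.choose 2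

theorem wt_zero (q : ℚ) : wt q 0 = 1 := by simp [wt]

theorem wt_succ (q : ℚ) (d : ℕ) : wt q (d + 1) = -(q ^ d * wt q d) := by
  rw [wt, wt, Nat.choose_succ_succ' d 1, Nat.choose_one_right, pow_add, pow_succ]
  ring

variable {F : Type*} [Field F] {V : Type*} [AddCommGroup V] [Module F V]

open scoped Classical in
/-- The sum of `H (dim W)` over the subspaces with the property `P`. -/
def ssum (P : Submodule F V → Prop) (H : ℕ → ℚ) : ℚ :=
  ∑ᶠ W : Submodule F V, if P W then H (finrank F W) else 0

theorem ssum_congr {P Q : Submodule F V → Prop} {H K : ℕ → ℚ} (hP : ∀ W, P W ↔ Q W)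
    (hH : ∀ d, H d = K d) : ssum P H = ssum Q K := by
  rw [show P = Q from funext fun W => propext (hP W), show H = K from funext hH]

theorem ssum_mul [Finite V] (P : Submodule F V → Prop) (c : ℚ) (H : ℕ → ℚ) :
    ssum P (fun d => c * H d) = c * ssum P H := by
  classical
  haveI : Fintype (Submodule F V) := Fintype.ofFinite _
  rw [ssum, ssum, finsum_eq_sum_of_fintype, finsum_eq_sum_of_fintype, Finset.mul_sum]
  exact Finset.sum_congr rfl fun W _ => by split_ifs <;> simp

theorem ssum_zero [Finite V] (P : Submodule F V → Prop) (H : ℕ → ℚ) (h : ∀ d, H d = 0) : ssum P H = 0 := by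
  simp [ssum, h]

theorem ssum_of_bot [Subsingleton V] {P : Submodule F V → Prop} (hP : P ⊥) (H : ℕ → ℚ) : ssum P H = H 0 := by
  classical
  rw [ssum, finsum_eq_single _ (⊥ : Submodule F V) fun W hW => absurd (Subsingleton.elim W ⊥) hW,
    if_pos hP, finrank_bot]

/-- A point `e` of a subspace `M` with complement (in `M`) parametrised by `V'`. -/
structure Split (F : Type*) [Field F] (V V' : Type*) [AddCommGroup V] [Module F V] [AddCommGroup V']
    [Module F V'] where
  M : Submodule F V
  e : V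
  c : V →ₗ[F] F
  ι : V' →ₗ[F] V
  π : V →ₗ[F] V'
  e_mem : e ∈ M
  ι_mem : ∀ y, ι y ∈ M
  c_e : c e = 1
  π_e : π e = 0
  π_ι : ∀ y, π (ι y) = y
  c_ι : ∀ y, c (ι y) = 0
  decomp : ∀ x ∈ M, x = ι (π x) + c x • e

variable {V' : Type*} [AddCommGroup V'] [Module F V'] (D : Split F V V')

/-- The subspace above `W'` containing the point. -/
def Split.up (W' : Submodule F V') : Submodule F V := W'.map D.ι ⊔ F ∙ D.e

/-- The subspace above `W'` given by a functional. -/
def Split.graph (W' : Submodule F V') (φ : W' →ₗ[F] F) : Submodule F V :=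
  LinearMap.range (D.ι.comp W'.subtype + φ.smulRight D.e)

theorem Split.e_ne : D.e ≠ 0 := fun h => by
  have := D.c_e
  rw [h, map_zero] at this
  exact zero_ne_one this

theorem Split.ι_injective : Function.Injective D.ι := fun a b h => by
  rw [← D.π_ι a, ← D.π_ι b, h]

theorem Split.mem_up {W' : Submodule F V'} {x : V} : x ∈ D.up W' ↔ x ∈ D.M ∧ D.π x ∈ W' := by
  constructor
  · intro hx
    obtain ⟨_, ⟨y, hy, rfl⟩, z, hz, rfl⟩ := Submodule.mem_sup.1 hx
    obtain ⟨a, rfl⟩ := Submodule.mem_span_singleton.1 hz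
    refine ⟨D.M.add_mem (D.ι_mem y) (D.M.smul_mem a D.e_mem), ?_⟩
    rwa [map_add, D.π_ι, map_smul, D.π_e, smul_zero, add_zero]
  · rintro ⟨hM, hπ⟩
    rw [D.decomp x hM]
    exact Submodule.add_mem_sup (Submodule.mem_map_of_mem hπ) (Submodule.smul_mem _ _ (Submodule.mem_span_singleton_self _))

theorem Split.mem_graph {W' : Submodule F V'} {φ : W' →ₗ[F] F} {x : V} :
    x ∈ D.graph W' φ ↔ ∃ y : W', D.ι y + φ y • D.e = x := Iff.rfl

theorem Split.graph_le (W' : Submodule F V') (φ : W' →ₗ[F] F) : D.graph W' φ ≤ D.up W' := by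
  intro x hx
  obtain ⟨y, rfl⟩ := D.mem_graph.1 hx
  exact Submodule.add_mem_sup (Submodule.mem_map_of_mem y.2) (Submodule.smul_mem _ _ (Submodule.mem_span_singleton_self _))

theorem Split.up_le (W' : Submodule F V') : D.up W' ≤ D.M := fun _ hx => (D.mem_up.1 hx).1

theorem Split.e_mem_up (W' : Submodule F V') : D.e ∈ D.up W' :=
  Submodule.mem_sup_right (Submodule.mem_span_singleton_self _)

theorem Split.up_eq {W : Submodule F V} (hW : W ≤ D.M) (he : D.e ∈ W) : D.up (W.map D.π) = W := by
  ext x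
  rw [D.mem_up]
  constructor
  · rintro ⟨hM, w, hw, hwx⟩
    have h1 := D.decomp x hM
    rw [← hwx, show D.ι (D.π w) = w - D.c w • D.e from eq_sub_of_add_eq (D.decomp w (hW hw)).symm] at h1
    rw [h1]
    exact W.add_mem (W.sub_mem hw (W.smul_mem _ he)) (W.smul_mem _ he)
  · exact fun hx => ⟨hW hx, Submodule.mem_map_of_mem hx⟩

theorem Split.map_up (W' : Submodule F V') : (D.up W').map D.π = W' := by
  ext y
  constructor
  · rintro ⟨x, hx, rfl⟩
    exact (D.mem_up.1 hx).2
  · exact fun hy => ⟨D.ι y, D.mem_up.2 ⟨D.ι_mem y, by rwa [D.π_ι]⟩, D.π_ι y⟩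

theorem Split.finrank_up [FiniteDimensional F V'] [FiniteDimensional F V] (W' : Submodule F V') :
    finrank F (D.up W') = finrank F W' + 1 := by
  have hdisj : W'.map D.ι ⊓ (F ∙ D.e) = ⊥ := by
    rw [eq_bot_iff]
    rintro x ⟨⟨y, -, rfl⟩, hz⟩
    obtain ⟨a, ha⟩ := Submodule.mem_span_singleton.1 hz
    have h1 := congrArg D.c ha
    rw [map_smul, D.c_e, D.c_ι, smul_eq_mul, mul_one] at h1
    rw [Submodule.mem_bot, ← ha, h1, zero_smul]
  have h := Submodule.finrank_sup_add_finrank_inf_eq (W'.map D.ι) (F ∙ D.e)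
  rw [hdisj, finrank_bot, add_zero, finrank_span_singleton D.e_ne,
    ← (Submodule.equivMapOfInjective D.ι D.ι_injective W').finrank_eq] at h
  exact h

theorem Split.graph_map_injective (W' : Submodule F V') (φ : W' →ₗ[F] F) :
    Function.Injective (D.ι.comp W'.subtype + φ.smulRight D.e) := fun a b h => by
  have := congrArg D.π h
  simp only [LinearMap.add_apply, LinearMap.comp_apply, LinearMap.smulRight_apply, map_add, map_smul, D.π_e,
    smul_zero, add_zero, D.π_ι, Submodule.subtype_apply] at this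
  exact Subtype.ext this

theorem Split.finrank_graph [FiniteDimensional F V'] (W' : Submodule F V') (φ : W' →ₗ[F] F) :
    finrank F (D.graph W' φ) = finrank F W' :=
  LinearMap.finrank_range_of_inj (D.graph_map_injective W' φ)

theorem Split.map_graph (W' : Submodule F V') (φ : W' →ₗ[F] F) : (D.graph W' φ).map D.π = W' := by
  ext y
  constructor
  · rintro ⟨x, hx, rfl⟩
    exact (D.mem_up.1 (D.graph_le W' φ hx)).2
  · intro hy
    refine ⟨_, D.mem_graph.2 ⟨⟨y, hy⟩, rfl⟩, ?_⟩
    rw [map_add, D.π_ι, map_smul, D.π_e, smul_zero, add_zero]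

theorem Split.e_notMem_graph (W' : Submodule F V') (φ : W' →ₗ[F] F) : D.e ∉ D.graph W' φ := by
  intro h
  obtain ⟨y, hy⟩ := D.mem_graph.1 h
  have h1 := congrArg D.π hy
  rw [map_add, map_smul, D.π_e, smul_zero, add_zero, D.π_ι] at h1
  rw [h1, map_zero, zero_add, show y = 0 from Subtype.ext h1, map_zero, zero_smul] at hy
  exact D.e_ne hy.symm

/-- All subspaces of `M`, by their image in `V'`. -/
def Split.param : (Σ W' : Submodule F V', Option (W' →ₗ[F] F)) → {W : Submodule F V // W ≤ D.M}
  | ⟨W', none⟩ => ⟨D.up W', D.up_le W'⟩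
  | ⟨W', some φ⟩ => ⟨D.graph W' φ, (D.graph_le W' φ).trans (D.up_le W')⟩

theorem Split.param_bijective : Function.Bijective D.param := by
  constructor
  · rintro ⟨W₁, o₁⟩ ⟨W₂, o₂⟩ h
    have hW : W₁ = W₂ := by
      have e := congrArg (fun W : {W : Submodule F V // W ≤ D.M} => W.1.map D.π) h
      rcases o₁ with _ | φ₁ <;> rcases o₂ with _ | φ₂ <;>
        simpa [Split.param, D.map_up, D.map_graph] using e
    subst hW
    have h' := congrArg Subtype.val h
    rcases o₁ with _ | φ₁ <;> rcases o₂ with _ | φ₂ <;> simp only [Split.param] at h'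
    · rfl
    · exact absurd (h' ▸ D.e_mem_up W₁) (D.e_notMem_graph W₁ φ₂)
    · exact absurd (h'.symm ▸ D.e_mem_up W₁) (D.e_notMem_graph W₁ φ₁)
    · refine congrArg (fun o => (⟨W₁, some o⟩ : Σ W' : Submodule F V', Option (W' →ₗ[F] F))) (LinearMap.ext fun y => ?_)
      obtain ⟨z, hz⟩ := D.mem_graph.1 (h' ▸ D.mem_graph.2 ⟨y, rfl⟩ : D.ι y + φ₁ y • D.e ∈ D.graph W₁ φ₂)
      have h1 := congrArg D.π hz
      simp only [map_add, map_smul, D.π_e, smul_zero, add_zero, D.π_ι] at h1
      have h2 := congrArg D.c hz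
      simp only [map_add, map_smul, D.c_e, D.c_ι, smul_eq_mul, mul_one, zero_add] at h2
      rw [← h2, Subtype.ext h1]
  · rintro ⟨W, hW⟩
    by_cases he : D.e ∈ W
    · exact ⟨⟨W.map D.π, none⟩, Subtype.ext (D.up_eq hW he)⟩
    have hinj : Function.Injective (D.π.submoduleMap W) := by
      refine (injective_iff_map_eq_zero (D.π.submoduleMap W)).2 fun x hx => Subtype.ext ?_
      have hπ : D.π x = 0 := congrArg Subtype.val hx
      have hxe := D.decomp x.1 (hW x.2)
      rw [hπ, map_zero, zero_add] at hxe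
      by_contra hne
      have hc : D.c x.1 ≠ 0 := fun h0 => hne (by rw [hxe, h0, zero_smul]; rfl)
      refine he ?_
      rw [← inv_smul_smul₀ hc D.e, ← hxe]
      exact W.smul_mem _ x.2
    let E := LinearEquiv.ofBijective (D.π.submoduleMap W) ⟨hinj, D.π.submoduleMap_surjective W⟩
    refine ⟨⟨W.map D.π, some ((D.c.comp W.subtype).comp E.symm.toLinearMap)⟩, Subtype.ext ?_⟩
    have key : ∀ y : W.map D.π, D.ι y + D.c (E.symm y).1 • D.e = (E.symm y).1 := fun y => by
      have hy : D.π (E.symm y).1 = y := congrArg Subtype.val (E.apply_symm_apply y)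
      rw [← hy]
      exact (D.decomp _ (hW (E.symm y).2)).symm
    ext x
    show x ∈ D.graph _ _ ↔ x ∈ W
    rw [D.mem_graph]
    constructor
    · rintro ⟨y, rfl⟩
      show D.ι y + D.c (E.symm y).1 • D.e ∈ W
      rw [key]
      exact (E.symm y).2
    · intro hx
      refine ⟨E ⟨x, hx⟩, ?_⟩
      show D.ι (E ⟨x, hx⟩ : V') + D.c (E.symm (E ⟨x, hx⟩)).1 • D.e = x
      rw [key, E.symm_apply_apply]

variable [Fintype F] [Finite V] [Finite V']

/-- Sums over subspaces of `M`, split at the point. -/
theorem Split.ssum_eq {P : Submodule F V → Prop} {Q : Submodule F V' → Prop} (hPM : ∀ W, P W → W ≤ D.M)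
    (h1 : ∀ W', P (D.up W') ↔ Q W') (h2 : ∀ W' φ, P (D.graph W' φ) ↔ Q W') (H : ℕ → ℚ) :
    ssum P H = ssum Q fun d => H (d + 1) + (Fintype.card F : ℚ) ^ d * H d := by
  classical
  haveI : FiniteDimensional F V := Module.Finite.of_finite
  haveI : FiniteDimensional F V' := Module.Finite.of_finite
  haveI : Fintype (Submodule F V) := Fintype.ofFinite _
  haveI : Fintype (Submodule F V') := Fintype.ofFinite _
  haveI hfin : ∀ W' : Submodule F V', Finite (W' →ₗ[F] F) := fun W' =>
    Finite.of_injective (fun φ => (φ : W' → F)) DFunLike.coe_injective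
  haveI : ∀ W' : Submodule F V', Fintype (W' →ₗ[F] F) := fun W' => Fintype.ofFinite _
  rw [ssum, ssum, finsum_eq_sum_of_fintype, finsum_eq_sum_of_fintype]
  rw [← Finset.sum_filter_add_sum_filter_not Finset.univ (fun W => W ≤ D.M),
    Finset.sum_eq_zero (s := Finset.univ.filter fun W => ¬ W ≤ D.M) fun W hW =>
      if_neg fun hP => (Finset.mem_filter.1 hW).2 (hPM W hP), add_zero,
    Finset.sum_subtype (p := fun W => W ≤ D.M) (Finset.univ.filter fun W => W ≤ D.M) (by simp)
      (fun W => if P W then H (finrank F W) else 0),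
    ← (Equiv.ofBijective D.param D.param_bijective).sum_comp, Fintype.sum_sigma]
  refine Finset.sum_congr rfl fun W' _ => ?_
  rw [Fintype.sum_option]
  show (if P (D.up W') then H (finrank F (D.up W')) else 0) +
    ∑ φ : W' →ₗ[F] F, (if P (D.graph W' φ) then H (finrank F (D.graph W' φ)) else 0) = _
  have hu : finrank F (D.up W') = finrank F W' + 1 := D.finrank_up W'
  have hg : ∀ φ : W' →ₗ[F] F, finrank F (D.graph W' φ) = finrank F W' := fun φ => D.finrank_graph W' φ
  simp only [h1, h2, hu, hg]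
  rw [Finset.sum_const, Finset.card_univ, ← Nat.card_eq_fintype_card (α := W' →ₗ[F] F),
    show Nat.card (W' →ₗ[F] F) = Fintype.card F ^ finrank F W' from ?_, nsmul_eq_mul]
  · split_ifs
    · push_cast; ring
    · ring
  · rw [Module.natCard_eq_pow_finrank (K := F), Nat.card_eq_fintype_card (α := F),
      Subspace.dual_finrank_eq]

/-- Sums over subspaces of `M` containing the point. -/
theorem Split.ssum_mem {P : Submodule F V → Prop} {Q : Submodule F V' → Prop} (hPM : ∀ W, P W → W ≤ D.M)
    (hPe : ∀ W, P W → D.e ∈ W) (h1 : ∀ W', P (D.up W') ↔ Q W') (H : ℕ → ℚ) :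
    ssum P H = ssum Q fun d => H (d + 1) := by
  classical
  haveI : FiniteDimensional F V := Module.Finite.of_finite
  haveI : FiniteDimensional F V' := Module.Finite.of_finite
  haveI : Fintype (Submodule F V) := Fintype.ofFinite _
  haveI : Fintype (Submodule F V') := Fintype.ofFinite _
  rw [ssum, ssum, finsum_eq_sum_of_fintype, finsum_eq_sum_of_fintype, ← Finset.sum_filter, ← Finset.sum_filter]
  refine Finset.sum_bij' (fun W _ => W.map D.π) (fun W' _ => D.up W') ?_ ?_ ?_ ?_ ?_
  · intro W hW
    simp only [Finset.mem_filter, Finset.mem_univ, true_and] at hW ⊢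
    rw [← h1, D.up_eq (hPM W hW) (hPe W hW)]
    exact hW
  · intro W' hW'
    simp only [Finset.mem_filter, Finset.mem_univ, true_and] at hW' ⊢
    exact (h1 W').2 hW'
  · intro W hW
    simp only [Finset.mem_filter, Finset.mem_univ, true_and] at hW
    exact D.up_eq (hPM W hW) (hPe W hW)
  · intro W' _
    exact D.map_up W'
  · intro W hW
    simp only [Finset.mem_filter, Finset.mem_univ, true_and] at hW
    conv_lhs => rw [← D.up_eq (hPM W hW) (hPe W hW), D.finrank_up]

/-- Exchange of summations. -/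
theorem sum_ssum {A : Type*} [Fintype A] (P : A → Submodule F V → Prop) (H : ℕ → ℚ) :
    ∑ a : A, ssum (P a) H = ∑ᶠ W : Submodule F V, (Nat.card {a : A // P a W} : ℚ) * H (finrank F W) := by
  classical
  haveI : Fintype (Submodule F V) := Fintype.ofFinite _
  simp only [ssum, finsum_eq_sum_of_fintype]
  rw [Finset.sum_comm]
  refine Finset.sum_congr rfl fun W _ => ?_
  rw [← Finset.sum_filter, Finset.sum_const, nsmul_eq_mul, Nat.card_eq_fintype_card, Fintype.card_subtype]

end Cfsg.Agent.UnipCount
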