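import Cfsg.Agent.UnipCount.Linear

/-!
# The number of unipotent isometries of a non-degenerate alternating form
-/

set_option autoImplicit false
set_option linter.style.haveILetI false
set_option linter.unusedSectionVars false

noncomputable section

open Module

namespace Cfsg.Agent.UnipCount

universe u v

variable {F : Type u} [Field F]

/-- A non-degenerate alternating form. -/
structure Alt (F : Type u) [Field F] (V : Type v) [AddCommGroup V] [Module F V] where
  B : V →ₗ[F] V →ₗ[F] F
  alt : ∀ x, B x x = 0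
  nd : ∀ x, (∀ y, B x y = 0) → x = 0

variable {V : Type v} [AddCommGroup V] [Module F V] (A : Alt F V)

theorem Alt.antisymm (x y : V) : A.B x y = -A.B y x := by
  have h := A.alt (x + y)
  simp only [map_add, LinearMap.add_apply, A.alt, zero_add, add_zero] at h
  linear_combination h

/-- Totally isotropic subspaces. -/
def Alt.TI (W : Submodule F V) : Prop := ∀ x ∈ W, ∀ y ∈ W, A.B x y = 0

theorem Alt.exists_partner {e : V} (he : e ≠ 0) : ∃ h, A.B e h = 1 := by
  obtain ⟨y, hy⟩ : ∃ y, A.B e y ≠ 0 := by
    by_contra! h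
    exact he (A.nd e h)
  exact ⟨(A.B e y)⁻¹ • y, by rw [map_smul, smul_eq_mul, inv_mul_cancel₀ hy]⟩

/-- The orthogonal complement of a hyperbolic pair. -/
abbrev Alt.sub (e h : V) : Submodule F V := LinearMap.ker (A.B e) ⊓ LinearMap.ker (A.B h)

variable {e h : V} (heh : A.B e h = 1)

/-- The projection to the complement. -/
def Alt.proj : V →ₗ[F] A.sub e h where
  toFun x := ⟨x + A.B h x • e - A.B e x • h, by
    simp only [Submodule.mem_inf, LinearMap.mem_ker, map_add, map_sub, map_smul, A.alt, heh,
      A.antisymm h e, smul_eq_mul]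
    constructor <;> ring⟩
  map_add' x y := Subtype.ext (by
    show x + y + A.B h (x + y) • e - A.B e (x + y) • h =
      (x + A.B h x • e - A.B e x • h) + (y + A.B h y • e - A.B e y • h)
    rw [map_add, map_add, add_smul, add_smul]; abel)
  map_smul' a x := Subtype.ext (by
    show a • x + A.B h (a • x) • e - A.B e (a • x) • h = a • (x + A.B h x • e - A.B e x • h)
    rw [map_smul, map_smul, smul_eq_mul, smul_eq_mul, mul_smul, mul_smul, smul_sub, smul_add])

include heh in
/-- The splitting of the orthogonal of `e`. -/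
def Alt.split : Split F V (A.sub e h) where
  M := LinearMap.ker (A.B e)
  e := e
  c := -A.B h
  ι := (A.sub e h).subtype
  π := A.proj heh
  e_mem := A.alt e
  ι_mem := fun y => y.2.1
  c_e := by rw [LinearMap.neg_apply, A.antisymm, heh, neg_neg]
  π_e := Subtype.ext (show e + A.B h e • e - A.B e e • h = 0 by
    rw [A.antisymm h e, heh, A.alt, neg_one_smul, zero_smul, add_neg_cancel, sub_zero])
  π_ι := fun y => Subtype.ext (show (y : V) + A.B h (y : V) • e - A.B e (y : V) • h = y by
    rw [show A.B h (y : V) = 0 from y.2.2, show A.B e (y : V) = 0 from y.2.1, zero_smul, zero_smul, add_zero,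
      sub_zero])
  c_ι := fun y => by rw [LinearMap.neg_apply]; exact neg_eq_zero.2 y.2.2
  decomp := fun x hx => by
    show x = (x + A.B h x • e - A.B e x • h) + (-A.B h) x • e
    rw [LinearMap.mem_ker.1 hx, zero_smul, sub_zero, LinearMap.neg_apply, neg_smul, add_neg_cancel_right]

theorem Alt.decomp (x : V) :
    x = (-A.B h x) • e + A.B e x • h + (A.proj heh x : V) := by
  show x = (-A.B h x) • e + A.B e x • h + (x + A.B h x • e - A.B e x • h)
  rw [neg_smul]; abel

include heh in
theorem Alt.pairing (a b a' b' : F) (u u' : A.sub e h) :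
    A.B (a • e + b • h + (u : V)) (a' • e + b' • h + (u' : V)) = a * b' - b * a' + A.B u u' := by
  have h1 : A.B e (u' : V) = 0 := u'.2.1
  have h2 : A.B h (u' : V) = 0 := u'.2.2
  have h3 : A.B (u : V) e = 0 := by rw [A.antisymm, show A.B e (u : V) = 0 from u.2.1, neg_zero]
  have h4 : A.B (u : V) h = 0 := by rw [A.antisymm, show A.B h (u : V) = 0 from u.2.2, neg_zero]
  simp only [map_add, map_smul, LinearMap.add_apply, LinearMap.smul_apply, A.alt, heh, A.antisymm h e, h1, h2,
    h3, h4, smul_eq_mul]
  ring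

include heh in
/-- The form on the complement. -/
def Alt.res : Alt F (A.sub e h) where
  B := A.B.compl₁₂ (A.sub e h).subtype (A.sub e h).subtype
  alt := fun x => A.alt x
  nd := fun x hx => Subtype.ext (A.nd x fun y => by
    have hp := A.pairing heh 0 0 (-A.B h y) (A.B e y) x (A.proj heh y)
    rw [← A.decomp heh y, zero_smul, zero_smul, zero_add, zero_add, zero_mul, zero_mul, sub_self, zero_add] at hp
    rw [hp]
    exact hx (A.proj heh y))

theorem Alt.res_apply (u w : A.sub e h) : (A.res heh).B u w = A.B u w := rfl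

include heh in
theorem Alt.B_eq_res {x y : V} (hx : x ∈ LinearMap.ker (A.B e)) (hy : y ∈ LinearMap.ker (A.B e)) :
    A.B x y = A.B (A.proj heh x : V) (A.proj heh y) := by
  conv_lhs => rw [A.decomp heh x, A.decomp heh y]
  rw [A.pairing heh, LinearMap.mem_ker.1 hx, LinearMap.mem_ker.1 hy]
  ring

include heh in
theorem Alt.TI_iff {W : Submodule F V} (hW : W ≤ LinearMap.ker (A.B e)) :
    A.TI W ↔ (A.res heh).TI (W.map (A.split heh).π) := by
  constructor
  · rintro hTI _ ⟨x, hx, rfl⟩ _ ⟨y, hy, rfl⟩
    rw [A.res_apply heh]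
    exact (A.B_eq_res heh (hW hx) (hW hy)).symm.trans (hTI x hx y hy)
  · intro hTI x hx y hy
    rw [A.B_eq_res heh (hW hx) (hW hy)]
    exact hTI _ (Submodule.mem_map_of_mem hx) _ (Submodule.mem_map_of_mem hy)

theorem Alt.finrank_sub [FiniteDimensional F V] (heh : A.B e h = 1) :
    finrank F (A.sub e h) + 2 = finrank F V := by
  have h1 := LinearMap.finrank_range_add_finrank_ker ((A.B e).prod (A.B h))
  rw [LinearMap.ker_prod, LinearMap.range_eq_top.2 fun ab => ⟨ab.1 • h + (-ab.2) • e, by
      simp [LinearMap.prod_apply, A.alt, heh, A.antisymm h e]⟩, finrank_top,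
    Module.finrank_prod, finrank_self] at h1
  show finrank F ↥(LinearMap.ker (A.B e) ⊓ LinearMap.ker (A.B h)) + 2 = _
  omega

variable [Fintype F]

/-- The value of a weighted sum over the totally isotropic subspaces. -/
def phi (q : ℚ) : ℕ → (ℕ → ℚ) → ℚ
  | 0, f => f 0
  | m + 1, f => phi q m (fun d => q ^ d * (f d - f (d + 1))) - q ^ (2 * m + 1) * phi q m (fun d => f (d + 1))

theorem phi_sub (q : ℚ) (m : ℕ) : ∀ f g : ℕ → ℚ, phi q m (fun d => f d - g d) = phi q m f - phi q m g := by
  induction m with
  | zero => intro f g; rfl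
  | succ m ih =>
    intro f g
    simp only [phi]
    rw [← show (fun d => q ^ d * (f d - f (d + 1)) - q ^ d * (g d - g (d + 1))) =
      fun d => q ^ d * (f d - g d - (f (d + 1) - g (d + 1))) from funext fun d => by ring, ih, ih]
    ring

theorem phi_mul (q : ℚ) (m : ℕ) : ∀ (c : ℚ) (f : ℕ → ℚ), phi q m (fun d => c * f d) = c * phi q m f := by
  induction m with
  | zero => intro c f; rfl
  | succ m ih =>
    intro c f
    simp only [phi]
    rw [← show (fun d => c * (q ^ d * (f d - f (d + 1)))) = fun d => q ^ d * (c * f d - c * f (d + 1)) from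
      funext fun d => by ring, ih, ih]
    ring

/-- The count attached to a totally isotropic subspace. -/
def uval (q : ℚ) (m d : ℕ) : ℚ := q ^ (2 * (m : ℤ) ^ 2 - 2 * m * d + ((d + 1).choose 2 : ℕ))

theorem phi_uval {q : ℚ} (hq : q ≠ 0) (m : ℕ) : phi q m (uval q m) = phi q m fun _ => 1 := by
  induction m with
  | zero => simp [phi, uval]
  | succ m ih =>
    have key : ∀ d, q ^ d * (uval q (m + 1) d - uval q (m + 1) (d + 1)) - q ^ (2 * m + 1) * uval q (m + 1) (d + 1) =
        -q ^ (2 * m + 1) * uval q m d := by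
      intro d
      have hc : ((d + 1 + 1).choose 2) = (d + 1).choose 2 + (d + 1) := by
        rw [Nat.choose_succ_succ' (d + 1) 1, Nat.choose_one_right, add_comm]
      have e1 : q ^ d * uval q (m + 1) (d + 1) = q ^ (2 * m + 1) * uval q m d := by
        unfold uval
        rw [← zpow_natCast q d, ← zpow_natCast q (2 * m + 1), ← zpow_add₀ hq, ← zpow_add₀ hq, hc]
        congr 1; push_cast; ring
      have e2 : q ^ d * uval q (m + 1) d = q ^ (2 * m + 1) * uval q (m + 1) (d + 1) := by
        unfold uval
        rw [← zpow_natCast q d, ← zpow_natCast q (2 * m + 1), ← zpow_add₀ hq, ← zpow_add₀ hq, hc]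
        congr 1; push_cast; ring
      linear_combination e2 - e1
    simp only [phi, sub_self, mul_zero]
    rw [← phi_mul, ← phi_sub, funext key, phi_mul, ih,
      show (fun _ : ℕ => (0 : ℚ)) = fun _ => (0 : ℚ) * 1 from funext fun _ => (zero_mul _).symm, phi_mul]
    ring

theorem card_affine [Finite V] (W : Submodule F V) (l : V →ₗ[F] F) {v : V} (hv : v ∈ W) (hl : l v = 1) :
    Nat.card {x : V // x ∈ W ∧ l x = 1} = Fintype.card F ^ (finrank F W - 1) := by
  haveI : FiniteDimensional F V := Module.Finite.of_finite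
  have hker := finrank_ker_functional (V := W) (e := ⟨v, hv⟩) (c := l.comp W.subtype) hl
  rw [show finrank F W - 1 = finrank F (LinearMap.ker (l.comp W.subtype)) by omega, ← Nat.card_eq_fintype_card,
    ← Module.natCard_eq_pow_finrank (K := F)]
  exact Nat.card_congr
    { toFun := fun x => ⟨⟨x.1 - v, W.sub_mem x.2.1 hv⟩, show l (x.1 - v) = 0 by rw [map_sub, x.2.2, hl, sub_self]⟩
      invFun := fun x => ⟨(x.1 : V) + v, W.add_mem x.1.2 hv, by
        rw [map_add, show l (x.1 : V) = 0 from x.2, hl, zero_add]⟩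
      left_inv := fun x => Subtype.ext (sub_add_cancel _ _)
      right_inv := fun x => Subtype.ext (Subtype.ext (add_sub_cancel_right _ _)) }

theorem subsingleton_of_finrank [Finite V] (hV : finrank F V = 0) : Subsingleton V := by
  haveI : FiniteDimensional F V := Module.Finite.of_finite
  exact Module.finrank_zero_iff.1 hV

/-- Weighted sums over totally isotropic subspaces depend only on the dimension. -/
theorem ssum_TI (m : ℕ) : ∀ {V : Type v} [AddCommGroup V] [Module F V] [Finite V] (A : Alt F V),
    finrank F V = 2 * m → ∀ f : ℕ → ℚ,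
      ssum A.TI (fun d => wt (Fintype.card F) d * f d) = phi (Fintype.card F) m f := by
  induction m with
  | zero =>
    intro V _ _ _ A hV f
    haveI := subsingleton_of_finrank (V := V) hV
    rw [ssum_of_bot (fun x hx => by rw [(Submodule.mem_bot F).1 hx]; simp), wt_zero, one_mul]
    rfl
  | succ m ih =>
    intro V _ _ _ A hV f
    classical
    haveI : FiniteDimensional F V := Module.Finite.of_finite
    haveI : Nontrivial V := Module.nontrivial_of_finrank_pos (R := F) (by omega)
    haveI : Fintype (Submodule F V) := Fintype.ofFinite _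
    haveI : Fintype V := Fintype.ofFinite _
    obtain ⟨e, he⟩ := exists_ne (0 : V)
    obtain ⟨h, heh⟩ := A.exists_partner he
    set q : ℚ := (Fintype.card F : ℚ)
    set M := LinearMap.ker (A.B e)
    have hrk : ∀ {a b : V}, A.B a b = 1 → finrank F (A.sub a b) = 2 * m := fun hab => by
      have := A.finrank_sub hab
      omega
    -- the subspaces orthogonal to `e`
    have h1 : ssum (fun W => A.TI W ∧ W ≤ M) (fun d => wt q d * f d) =
        phi q m fun d => q ^ d * (f d - f (d + 1)) := by
      rw [(A.split heh).ssum_eq (fun W hW => hW.2) (Q := (A.res heh).TI), ← ih (A.res heh) (hrk heh)]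
      · exact ssum_congr (fun _ => Iff.rfl) fun d => by rw [wt_succ]; ring
      · intro W'
        rw [A.TI_iff heh ((A.split heh).up_le W'), (A.split heh).map_up]
        exact and_iff_left ((A.split heh).up_le W')
      · intro W' φ
        have hle := ((A.split heh).graph_le W' φ).trans ((A.split heh).up_le W')
        rw [A.TI_iff heh hle, (A.split heh).map_graph]
        exact and_iff_left hle
    -- the others
    have h2 : ∀ v : {v : V // A.B e v = 1},
        ssum (fun W => A.TI W ∧ (v : V) ∈ W) (fun d => wt q (d - 1) * f d) = phi q m fun d => f (d + 1) := by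
      rintro ⟨v, hv⟩
      have hv0 : v ≠ 0 := fun h0 => by rw [h0, map_zero] at hv; exact zero_ne_one hv
      obtain ⟨w, hvw⟩ := A.exists_partner hv0
      have hP : ∀ W, A.TI W ∧ v ∈ W → W ≤ (A.split hvw).M := fun W hW x hx => hW.1 v hW.2 x hx
      rw [(A.split hvw).ssum_mem (P := fun W => A.TI W ∧ v ∈ W) hP (fun W hW => hW.2) (Q := (A.res hvw).TI),
        ← ih (A.res hvw) (hrk hvw)]
      · exact ssum_congr (fun _ => Iff.rfl) fun d => by rw [Nat.add_sub_cancel]
      · intro W'
        rw [A.TI_iff hvw ((A.split hvw).up_le W'), (A.split hvw).map_up]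
        exact and_iff_left ((A.split hvw).e_mem_up W')
    have hcount : Nat.card {v : V // A.B e v = 1} = Fintype.card F ^ (2 * m + 1) := by
      have := card_affine (⊤ : Submodule F V) (A.B e) (v := h) Submodule.mem_top heh
      rw [finrank_top, hV, show 2 * (m + 1) - 1 = 2 * m + 1 by omega] at this
      rw [← this]
      exact Nat.card_congr (Equiv.subtypeEquivRight fun v => (and_iff_right Submodule.mem_top).symm)
    have h3 := sum_ssum (fun (v : {v : V // A.B e v = 1}) W => A.TI W ∧ (v : V) ∈ W) fun d => wt q (d - 1) * f d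
    rw [Finset.sum_congr rfl fun v _ => h2 v, Finset.sum_const, Finset.card_univ, ← Nat.card_eq_fintype_card,
      hcount, finsum_eq_sum_of_fintype, nsmul_eq_mul, Nat.cast_pow] at h3
    rw [ssum, finsum_eq_sum_of_fintype] at h1 ⊢
    simp only [phi]
    rw [← h1, h3, ← Finset.sum_sub_distrib]
    refine Finset.sum_congr rfl fun W _ => ?_
    by_cases hTI : A.TI W
    swap
    · have hz : Nat.card {v : {v : V // A.B e v = 1} // A.TI W ∧ (v : V) ∈ W} = 0 :=
        Nat.card_eq_zero.2 (Or.inl ⟨fun v => hTI v.2.1⟩)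
      rw [if_neg hTI, if_neg fun h => hTI h.1, hz, Nat.cast_zero, zero_mul, sub_zero]
    have hcard : Nat.card {v : {v : V // A.B e v = 1} // A.TI W ∧ (v : V) ∈ W} =
        Nat.card {x : V // x ∈ W ∧ A.B e x = 1} := Nat.card_congr
      { toFun := fun v => ⟨v.1.1, v.2.2, v.1.2⟩
        invFun := fun x => ⟨⟨x.1, x.2.2⟩, hTI, x.2.1⟩
        left_inv := fun v => rfl
        right_inv := fun x => rfl }
    rw [hcard, if_pos hTI]
    by_cases hWM : W ≤ M
    · have hz : Nat.card {x : V // x ∈ W ∧ A.B e x = 1} = 0 := Nat.card_eq_zero.2 (Or.inl ⟨fun x => by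
        have := LinearMap.mem_ker.1 (hWM x.2.1)
        rw [x.2.2] at this
        exact one_ne_zero this⟩)
      rw [if_pos ⟨hTI, hWM⟩, hz, Nat.cast_zero, zero_mul, sub_zero]
    · obtain ⟨x, hxW, hxM⟩ := SetLike.not_le_iff_exists.1 hWM
      have hx : A.B e ((A.B e x)⁻¹ • x) = 1 := by
        rw [map_smul, smul_eq_mul, inv_mul_cancel₀ fun h0 => hxM h0]
      rw [if_neg fun h => hWM h.2, card_affine W (A.B e) (W.smul_mem _ hxW) hx, Nat.cast_pow]
      obtain ⟨d, hd⟩ : ∃ d, finrank F W = d + 1 := by
        refine Nat.exists_eq_add_one.2 (Nat.pos_iff_ne_zero.2 fun h0 => hxM ?_)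
        rw [Submodule.finrank_eq_zero] at h0
        have hx0 : x ∈ (⊥ : Submodule F V) := h0 ▸ hxW
        rw [(Submodule.mem_bot F).1 hx0]
        exact zero_mem _
      rw [hd, Nat.add_sub_cancel, wt_succ]
      ring

/-- Unipotent isometries fixing a subspace pointwise. -/
abbrev Alt.Uni (W : Submodule F V) : Type v :=
  {g : Module.End F V // (∀ x y, A.B (g x) (g y) = A.B x y) ∧ IsNilpotent (g - 1) ∧ ∀ x ∈ W, g x = x}

include heh in
theorem Alt.card_uni_step [Finite V] {W : Submodule F V} (hTI : A.TI W) (heW : e ∈ W) :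
    Nat.card (A.Uni W) = Nat.card ((A.res heh).Uni (W.map (A.split heh).π)) *
      (Fintype.card F * Fintype.card F ^ (finrank F (A.sub e h) - finrank F (W.map (A.split heh).π))) := by
  classical
  haveI : FiniteDimensional F V := Module.Finite.of_finite
  haveI : Finite (A.sub e h) := Subtype.finite
  haveI : FiniteDimensional F (A.sub e h) := Module.Finite.of_finite
  set D := A.split heh with hD
  set R := A.res heh with hR
  set W' := W.map D.π
  have hWM : W ≤ D.M := fun x hx => hTI e heW x hx
  have hup : D.up W' = W := D.up_eq hWM heW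
  have hπ : ∀ x, D.π x = A.proj heh x := fun _ => rfl
  have hRB : ∀ u w : A.sub e h, R.B u w = A.B u w := fun _ _ => rfl
  -- the vectors orthogonal to `W'`
  set ψ : A.sub e h →ₗ[F] Module.Dual F W' := W'.subtype.dualMap.comp R.B.flip
  have hψ : ∀ x : A.sub e h, ψ x = 0 ↔ ∀ y ∈ W', R.B y x = 0 := fun x =>
    ⟨fun h0 y hy => LinearMap.congr_fun h0 ⟨y, hy⟩, fun h0 => LinearMap.ext fun y => h0 y.1 y.2⟩
  have hperp : Nat.card (LinearMap.ker ψ) = Fintype.card F ^ (finrank F (A.sub e h) - finrank F W') := by
    have hinj : Function.Injective R.B.flip := (injective_iff_map_eq_zero R.B.flip).2 fun x hx =>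
      R.nd x fun y => by rw [R.antisymm, show R.B y x = 0 from LinearMap.congr_fun hx y, neg_zero]
    have hsurj : Function.Surjective R.B.flip :=
      (LinearMap.injective_iff_surjective_of_finrank_eq_finrank (Subspace.dual_finrank_eq (K := F)).symm).1 hinj
    have hs : Function.Surjective ψ :=
      (LinearMap.dualMap_surjective_of_injective W'.injective_subtype).comp hsurj
    have h1 := LinearMap.finrank_range_add_finrank_ker ψ
    rw [LinearMap.range_eq_top.2 hs, finrank_top, Subspace.dual_finrank_eq] at h1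
    rw [Module.natCard_eq_pow_finrank (K := F), Nat.card_eq_fintype_card]
    congr 1
    omega
  rw [← hperp, ← Nat.card_eq_fintype_card, ← Nat.card_prod, ← Nat.card_prod]
  let G : Module.End F (A.sub e h) → F → A.sub e h → Module.End F V := fun g' a x =>
    D.c.smulRight e + (A.B e).smulRight (h + a • e + (x : V)) + D.ι.comp (g'.comp D.π) -
      ((R.B.flip x).comp (g'.comp D.π)).smulRight e
  have hG : ∀ g' a x z, G g' a x z = (D.c z + a * A.B e z - R.B (g' (D.π z)) x) • e + A.B e z • h +
      ((A.B e z • x + g' (D.π z) : A.sub e h) : V) := by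
    intro g' a x z
    show D.c z • e + A.B e z • (h + a • e + (x : V)) + ((g' (D.π z) : A.sub e h) : V) - R.B (g' (D.π z)) x • e = _
    rw [Submodule.coe_add, Submodule.coe_smul, sub_smul, add_smul, smul_add, smul_add, smul_smul, mul_comm]
    abel
  have hc0 : ∀ z, D.c z = -A.B h z := fun _ => rfl
  have hge : ∀ g : A.Uni W, g.1 e = e := fun g => g.2.2.2 e heW
  have hgM : ∀ (g : A.Uni W) z, A.B e (g.1 z) = A.B e z := fun g z => by
    conv_lhs => rw [← hge g]
    exact g.2.1 e z
  have hsemi : ∀ (g : A.Uni W) z, z ∈ D.M → D.π (g.1 z) = D.π (g.1 (D.ι (D.π z))) := fun g z hz => by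
    conv_lhs => rw [D.decomp z hz, map_add, map_smul, show g.1 D.e = e from hge g, map_add, map_smul,
      show D.π e = 0 from D.π_e, smul_zero, add_zero]
  refine Nat.card_congr
    { toFun := fun g => (⟨D.π.comp (g.1.comp D.ι), ?_, ?_, ?_⟩, D.c (g.1 h), ⟨D.π (g.1 h), ?_⟩)
      invFun := fun b => ⟨G b.1.1 b.2.1 b.2.2.1, ?_, ?_, ?_⟩
      left_inv := fun g => Subtype.ext (LinearMap.ext fun z => ?_)
      right_inv := fun b => Prod.ext (Subtype.ext (LinearMap.ext fun y => ?_)) (Prod.ext ?_ (Subtype.ext ?_)) }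
  · intro x y
    rw [hRB, hRB]
    show A.B (D.π (g.1 (D.ι x)) : V) (D.π (g.1 (D.ι y))) = _
    rw [hπ, hπ, ← A.B_eq_res heh, g.2.1]
    · rfl
    · exact LinearMap.mem_ker.2 ((hgM g _).trans x.2.1)
    · exact LinearMap.mem_ker.2 ((hgM g _).trans y.2.1)
  · obtain ⟨k, hk⟩ := g.2.2.1
    refine ⟨k, LinearMap.ext fun y => ?_⟩
    have hi : ∀ i : ℕ, ((g.1 - 1 : Module.End F V) ^ i) (D.ι y) ∈ D.M ∧
        ((D.π.comp (g.1.comp D.ι) - 1 : Module.End F (A.sub e h)) ^ i) y = D.π (((g.1 - 1 : Module.End F V) ^ i) (D.ι y)) := by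
      intro i
      induction i with
      | zero => exact ⟨D.ι_mem y, (D.π_ι y).symm⟩
      | succ i ih =>
        obtain ⟨h1, h2⟩ := ih
        constructor
        · rw [pow_succ', Module.End.mul_apply, LinearMap.sub_apply, Module.End.one_apply]
          exact D.M.sub_mem (LinearMap.mem_ker.2 ((hgM g _).trans h1)) h1
        · rw [pow_succ', pow_succ', Module.End.mul_apply, Module.End.mul_apply, h2, LinearMap.sub_apply,
            LinearMap.sub_apply, Module.End.one_apply, Module.End.one_apply, map_sub, hsemi g _ h1]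
          rfl
    rw [(hi k).2, hk, LinearMap.zero_apply, map_zero, LinearMap.zero_apply]
  · intro y hy
    show D.π (g.1 (D.ι y)) = y
    rw [g.2.2.2 _ (hup ▸ D.mem_up.2 ⟨D.ι_mem y, by rwa [D.π_ι]⟩), D.π_ι]
  · rw [LinearMap.mem_ker, hψ]
    intro y hy
    have hy' : g.1 (D.ι y) = D.ι y := g.2.2.2 _ (hup ▸ D.mem_up.2 ⟨D.ι_mem y, by rwa [D.π_ι]⟩)
    have h1 : A.B (D.ι y) (g.1 h) = 0 := by
      rw [← hy', g.2.1]
      show A.B (y : V) h = 0
      rw [A.antisymm, show A.B h (y : V) = 0 from y.2.2, neg_zero]
    have hp := A.pairing heh 0 0 (-A.B h (g.1 h)) (A.B e (g.1 h)) y (A.proj heh (g.1 h))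
    rw [← A.decomp heh, zero_smul, zero_smul, zero_add, zero_add, zero_mul, zero_mul, sub_self, zero_add] at hp
    rw [hRB, hπ, ← hp]
    exact h1
  · intro z w
    rw [hG, hG, A.pairing heh]
    obtain ⟨⟨g', hg'⟩, a, x, hx⟩ := b
    simp only at *
    have e1 := hg'.1 (D.π z) (D.π w)
    rw [hRB, hRB] at e1
    have e2 : A.B z w = D.c z * A.B e w - A.B e z * D.c w + A.B (D.π z : V) (D.π w) := by
      rw [hc0, hc0, hπ, hπ]
      conv_lhs => rw [A.decomp heh z, A.decomp heh w, A.pairing heh]
    simp only [Submodule.coe_add, Submodule.coe_smul, map_add, map_smul, LinearMap.add_apply,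
      LinearMap.smul_apply, smul_eq_mul, e1, hRB, A.alt, A.antisymm (x : V) (g' (D.π w) : V)]
    linear_combination -e2
  · obtain ⟨⟨g', hg'⟩, a, x⟩ := b
    obtain ⟨k, hk⟩ := hg'.2.1
    set g := G g' a x.1
    have hgee : g e = e := by
      rw [hG, show D.c e = 1 from D.c_e, A.alt, show D.π e = 0 from D.π_e, map_zero, map_zero,
        LinearMap.zero_apply]
      simp
    have hM : ∀ z, (g - 1) z ∈ D.M := fun z => by
      show A.B e ((g - 1) z) = 0
      rw [LinearMap.sub_apply, Module.End.one_apply, map_sub, hG]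
      simp only [map_add, map_smul, A.alt, heh, smul_eq_mul]
      rw [show A.B e ((A.B e z • x.1 + g' (D.π z) : A.sub e h) : V) = 0 from
        (A.B e z • x.1 + g' (D.π z) : A.sub e h).2.1]
      ring
    have hπg : ∀ z ∈ D.M, D.π ((g - 1) z) = (g' - 1) (D.π z) := fun z hz => by
      rw [LinearMap.sub_apply, Module.End.one_apply, map_sub, hG, show A.B e z = 0 from hz, mul_zero, add_zero,
        zero_smul, zero_smul, add_zero, zero_add, map_add, map_smul, show D.π e = 0 from D.π_e, smul_zero,
        zero_add]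
      rw [show ((g' (D.π z) : A.sub e h) : V) = D.ι (g' (D.π z)) from rfl, D.π_ι, LinearMap.sub_apply,
        Module.End.one_apply]
    have hi : ∀ i : ℕ, ∀ z ∈ D.M, ((g - 1 : Module.End F V) ^ i) z ∈ D.M ∧
        D.π (((g - 1 : Module.End F V) ^ i) z) = ((g' - 1 : Module.End F (A.sub e h)) ^ i) (D.π z) := by
      intro i
      induction i with
      | zero => intro z hz; exact ⟨hz, rfl⟩
      | succ i ih =>
        intro z hz
        obtain ⟨h1, h2⟩ := ih z hz
        rw [pow_succ', pow_succ', Module.End.mul_apply, Module.End.mul_apply, ← h2]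
        exact ⟨hM _, hπg _ h1⟩
    refine ⟨k + 2, LinearMap.ext fun z => ?_⟩
    obtain ⟨h1, h2⟩ := hi k _ (hM z)
    rw [hk, LinearMap.zero_apply] at h2
    have h3 := D.decomp _ h1
    rw [h2, map_zero, zero_add] at h3
    have h4 : (g - 1) D.e = 0 := by
      rw [LinearMap.sub_apply, Module.End.one_apply, show g D.e = D.e from hgee, sub_self]
    rw [pow_succ', Module.End.mul_apply, pow_succ, Module.End.mul_apply, h3, map_smul, h4, smul_zero,
      LinearMap.zero_apply]
  · intro z hz
    obtain ⟨⟨g', hg'⟩, a, x⟩ := b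
    have hy : D.π z ∈ W' := Submodule.mem_map_of_mem hz
    show G g' a x.1 z = z
    rw [hG, show A.B e z = 0 from hWM hz, hg'.2.2 _ hy, (hψ x.1).1 (LinearMap.mem_ker.1 x.2) _ hy, mul_zero,
      add_zero, sub_zero, zero_smul, zero_smul, add_zero, zero_add]
    conv_rhs => rw [D.decomp z (hWM hz)]
    exact add_comm _ _
  · show G (D.π.comp (g.1.comp D.ι)) (D.c (g.1 h)) (D.π (g.1 h)) z = g.1 z
    rw [hG]
    have hgh : g.1 h = D.c (g.1 h) • e + (1 : F) • h + (D.π (g.1 h) : V) := by
      conv_lhs => rw [A.decomp heh (g.1 h), hgM g, heh]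
      rfl
    set y := D.π z
    have hyM : g.1 (D.ι y) ∈ D.M := LinearMap.mem_ker.2 ((hgM g _).trans y.2.1)
    have hgy := D.decomp _ hyM
    set u := D.π (g.1 (D.ι y)) with hu
    have hcy : D.c (g.1 (D.ι y)) = -R.B u (D.π (g.1 h)) := by
      have hp : A.B (g.1 (D.ι y)) (g.1 h) =
          D.c (g.1 (D.ι y)) * 1 - 0 * D.c (g.1 h) + A.B (u : V) (D.π (g.1 h)) := by
        conv_lhs => rw [hgy, hgh, show (D.ι u + D.c (g.1 (D.ι y)) • D.e) =
          D.c (g.1 (D.ι y)) • e + (0 : F) • h + (u : V) by rw [zero_smul, add_zero]; exact add_comm _ _,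
          A.pairing heh]
      have h0 : A.B (g.1 (D.ι y)) (g.1 h) = 0 := by
        rw [g.2.1]
        show A.B (y : V) h = 0
        rw [A.antisymm, show A.B h (y : V) = 0 from y.2.2, neg_zero]
      rw [hRB]
      linear_combination h0 - hp
    show (D.c z + D.c (g.1 h) * A.B e z - R.B u (D.π (g.1 h))) • e + A.B e z • h +
      ((A.B e z • D.π (g.1 h) + u : A.sub e h) : V) = g.1 z
    conv_rhs => rw [A.decomp heh z, map_add, map_add, map_smul, map_smul, hge g, hgh,
      show g.1 (A.proj heh z : V) = g.1 (D.ι y) from rfl, hgy, hcy]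
    show _ = _ + _ + ((u : V) + _ • e)
    rw [Submodule.coe_add, Submodule.coe_smul, ← hc0, smul_add, smul_add, smul_smul, one_smul, sub_smul, add_smul,
      neg_smul, mul_comm]
    abel
  · show D.π (G b.1.1 b.2.1 b.2.2.1 (D.ι y)) = b.1.1 y
    rw [hG, show A.B e (D.ι y) = 0 from y.2.1, D.π_ι, zero_smul, zero_smul, add_zero, zero_add, map_add,
      map_smul, show D.π e = 0 from D.π_e, smul_zero, zero_add]
    exact D.π_ι _
  · show D.c (G b.1.1 b.2.1 b.2.2.1 h) = b.2.1
    have hπh : D.π h = 0 := Subtype.ext (show h + A.B h h • e - A.B e h • h = 0 by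
      rw [A.alt, heh, zero_smul, add_zero, one_smul, sub_self])
    rw [hG, heh, hπh, map_zero, map_zero, LinearMap.zero_apply, one_smul, one_smul, add_zero, mul_one, sub_zero,
      map_add, map_add, map_smul, show D.c e = 1 from D.c_e, hc0, A.alt, neg_zero, zero_add, add_zero]
    show _ + D.c (D.ι _) = _
    rw [D.c_ι, add_zero, smul_eq_mul, mul_one]
  · show D.π (G b.1.1 b.2.1 b.2.2.1 h) = b.2.2.1
    have hπh : D.π h = 0 := Subtype.ext (show h + A.B h h • e - A.B e h • h = 0 by
      rw [A.alt, heh, zero_smul, add_zero, one_smul, sub_self])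
    rw [hG, heh, hπh, map_zero, one_smul, one_smul, add_zero, map_add, map_add, map_smul,
      show D.π e = 0 from D.π_e, smul_zero, hπh, zero_add, zero_add]
    exact D.π_ι _

/-- Unipotent isometries fixing a totally isotropic subspace of dimension `d`. -/
theorem card_uni (m : ℕ) : ∀ {V : Type v} [AddCommGroup V] [Module F V] [Finite V] (A : Alt F V),
    finrank F V = 2 * m → ∀ W : Submodule F V, A.TI W →
      (Nat.card (A.Uni W) : ℚ) = uval (Fintype.card F) m (finrank F W) := by
  induction m with
  | zero =>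
    intro V _ _ _ A hV W _
    haveI := subsingleton_of_finrank (V := V) hV
    haveI : Subsingleton (A.Uni W) := ⟨fun a b => Subtype.ext (LinearMap.ext fun x => Subsingleton.elim _ _)⟩
    haveI : Nonempty (A.Uni W) := ⟨⟨1, fun _ _ => rfl, by rw [sub_self]; exact IsNilpotent.zero, fun _ _ => rfl⟩⟩
    rw [Nat.card_unique, Subsingleton.elim W ⊥, finrank_bot]
    simp [uval]
  | succ m ih =>
    intro V _ _ _ A hV
    classical
    haveI : FiniteDimensional F V := Module.Finite.of_finite
    haveI : Fintype (Submodule F V) := Fintype.ofFinite _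
    set q : ℚ := (Fintype.card F : ℚ) with hqdef
    have hq : q ≠ 0 := Nat.cast_ne_zero.2 Fintype.card_ne_zero
    have hrk : ∀ {a b : V}, A.B a b = 1 → finrank F (A.sub a b) = 2 * m := fun hab => by
      have := A.finrank_sub hab
      omega
    have step : ∀ W : Submodule F V, A.TI W → W ≠ ⊥ →
        (Nat.card (A.Uni W) : ℚ) = uval q (m + 1) (finrank F W) := by
      intro W hTI hW
      obtain ⟨e, heW, he⟩ := Submodule.exists_mem_ne_zero_of_ne_bot hW
      obtain ⟨h, heh⟩ := A.exists_partner he
      haveI : Finite (A.sub e h) := Subtype.finite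
      haveI : FiniteDimensional F (A.sub e h) := Module.Finite.of_finite
      have hWM : W ≤ (A.split heh).M := fun x hx => hTI e heW x hx
      have hd : finrank F W = finrank F (W.map (A.split heh).π) + 1 := by
        conv_lhs => rw [← (A.split heh).up_eq hWM heW]
        exact (A.split heh).finrank_up _
      have hle := Submodule.finrank_le (W.map (A.split heh).π)
      rw [A.card_uni_step heh hTI heW, Nat.cast_mul, Nat.cast_mul, Nat.cast_pow,
        ih (A.res heh) (hrk heh) _ ((A.TI_iff heh hWM).1 hTI), ← hqdef, hd]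
      set d := finrank F (W.map (A.split heh).π)
      rw [hrk heh] at hle ⊢
      unfold uval
      rw [show (d + 1 + 1).choose 2 = (d + 1).choose 2 + (d + 1) by
        rw [Nat.choose_succ_succ' (d + 1) 1, Nat.choose_one_right, add_comm],
        ← zpow_natCast q (2 * m - d), ← zpow_one_add₀ hq, ← zpow_add₀ hq, Nat.cast_sub hle]
      congr 1
      push_cast
      ring
    intro W hTI
    by_cases hW : W = ⊥
    swap
    · exact step W hTI hW
    subst hW
    haveI : Finite (Module.End F V) := Finite.of_injective (fun φ => (φ : V → V)) DFunLike.coe_injective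
    haveI : Fintype (A.Uni ⊥) := Fintype.ofFinite _
    let P : A.Uni ⊥ → Submodule F V → Prop := fun g W => A.TI W ∧ W ≤ LinearMap.ker (g.1 - 1)
    let one : A.Uni ⊥ := ⟨1, fun _ _ => rfl, by rw [sub_self]; exact IsNilpotent.zero, fun _ _ => rfl⟩
    have hne : ∀ g, g ≠ one → ssum (P g) (fun d => wt q d) = 0 := by
      intro g hg
      have hN : g.1 - 1 ≠ 0 := fun h0 => hg (Subtype.ext (sub_eq_zero.1 h0))
      obtain ⟨k, hk⟩ := g.2.2.1
      have hex : ∃ x, (g.1 - 1) x ≠ 0 ∧ (g.1 - 1) ((g.1 - 1) x) = 0 := by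
        by_contra! hall
        obtain ⟨x, hx⟩ : ∃ x, (g.1 - 1) x ≠ 0 := by
          by_contra! h0
          exact hN (LinearMap.ext h0)
        have : ∀ i : ℕ, ((g.1 - 1 : Module.End F V) ^ (i + 1)) x ≠ 0 := by
          intro i
          induction i with
          | zero => simpa using hx
          | succ i ihi =>
            rw [pow_succ', Module.End.mul_apply] at ihi
            rw [pow_succ', Module.End.mul_apply, pow_succ', Module.End.mul_apply]
            exact hall _ ihi
        exact this k (by rw [pow_succ, hk, zero_mul, LinearMap.zero_apply])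
      obtain ⟨x, hx0, hx1⟩ := hex
      set e := (g.1 - 1) x with hedef
      obtain ⟨h, heh⟩ := A.exists_partner hx0
      have hfix : LinearMap.ker (g.1 - 1) ≤ (A.split heh).M := by
        intro y hy
        rw [LinearMap.mem_ker, LinearMap.sub_apply, Module.End.one_apply, sub_eq_zero] at hy
        show A.B e y = 0
        rw [hedef, LinearMap.sub_apply, Module.End.one_apply, map_sub, LinearMap.sub_apply]
        conv_lhs => arg 1; rw [← hy, g.2.1]
        rw [sub_self]
      have hmem : ∀ z ∈ (A.split heh).M,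
          (z ∈ LinearMap.ker (g.1 - 1) ↔ (A.split heh).ι ((A.split heh).π z) ∈ LinearMap.ker (g.1 - 1)) := by
        intro z hz
        rw [LinearMap.mem_ker, LinearMap.mem_ker]
        conv_lhs => rw [(A.split heh).decomp z hz, map_add, map_smul,
          show (g.1 - 1) (A.split heh).e = 0 from hx1, smul_zero, add_zero]
      rw [(A.split heh).ssum_eq (fun W hW => hW.2.trans hfix)
        (Q := fun W' => (A.res heh).TI W' ∧ W' ≤ (LinearMap.ker (g.1 - 1)).comap (A.split heh).ι)]
      · exact ssum_zero _ _ fun d => by rw [wt_succ]; ring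
      · intro W'
        refine and_congr (by rw [A.TI_iff heh ((A.split heh).up_le W'), (A.split heh).map_up]) ?_
        constructor
        · exact fun hle y hy => hle ((A.split heh).mem_up.2 ⟨(A.split heh).ι_mem y, by rwa [(A.split heh).π_ι]⟩)
        · exact fun hle z hz => (hmem z ((A.split heh).mem_up.1 hz).1).2 (hle ((A.split heh).mem_up.1 hz).2)
      · intro W' φ
        have hle' := ((A.split heh).graph_le W' φ).trans ((A.split heh).up_le W')
        refine and_congr (by rw [A.TI_iff heh hle', (A.split heh).map_graph]) ?_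
        constructor
        · intro hle y hy
          have hy' := ((A.split heh).mem_graph (φ := φ)).2 ⟨(⟨y, hy⟩ : W'), rfl⟩
          have h1 := (hmem _ (hle' hy')).1 (hle hy')
          rwa [map_add, map_smul, (A.split heh).π_e, smul_zero, add_zero, (A.split heh).π_ι] at h1
        · exact fun hle z hz => (hmem z (hle' hz)).2
            (hle ((A.split heh).mem_up.1 ((A.split heh).graph_le W' φ hz)).2)
    have hone : ssum (P one) (fun d => wt q d) = phi q (m + 1) (uval q (m + 1)) := by
      rw [phi_uval hq, ← ssum_TI (m + 1) A hV]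
      exact ssum_congr (fun W => and_iff_left (fun z _ => by simp [one])) fun d => (mul_one _).symm
    have h1 := sum_ssum P fun d => wt q d
    rw [Finset.sum_eq_single one (fun g _ hg => hne g hg) (fun hc => absurd (Finset.mem_univ _) hc), hone,
      ← ssum_TI (m + 1) A hV, ssum, finsum_eq_sum_of_fintype, finsum_eq_sum_of_fintype] at h1
    have hterm : ∀ W : Submodule F V, (Nat.card {g : A.Uni ⊥ // P g W} : ℚ) * wt q (finrank F W) =
        if A.TI W then (Nat.card (A.Uni W) : ℚ) * wt q (finrank F W) else 0 := by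
      intro W
      by_cases hW : A.TI W
      · rw [if_pos hW]
        congr 2
        exact Nat.card_congr
          { toFun := fun a => ⟨a.1.1, a.1.2.1, a.1.2.2.1, fun x hx => sub_eq_zero.1 (LinearMap.mem_ker.1 (a.2.2 hx))⟩
            invFun := fun N => ⟨⟨N.1, N.2.1, N.2.2.1, fun x hx => by rw [(Submodule.mem_bot F).1 hx, map_zero]⟩,
              hW, fun x hx => LinearMap.mem_ker.2 (sub_eq_zero.2 (N.2.2.2 x hx))⟩
            left_inv := fun a => rfl
            right_inv := fun N => rfl }
      · rw [if_neg hW, Nat.card_eq_zero.2 (Or.inl ⟨fun a => hW a.2.1⟩), Nat.cast_zero, zero_mul]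
    rw [Finset.sum_congr rfl fun W _ => hterm W, ← Finset.add_sum_erase _ _ (Finset.mem_univ (⊥ : Submodule F V)),
      ← Finset.add_sum_erase _ _ (Finset.mem_univ (⊥ : Submodule F V))] at h1
    have hrest : ∀ W ∈ Finset.univ.erase (⊥ : Submodule F V),
        (if A.TI W then wt q (finrank F W) * uval q (m + 1) (finrank F W) else 0) =
          if A.TI W then (Nat.card (A.Uni W) : ℚ) * wt q (finrank F W) else 0 := fun W hW => by
      by_cases hW' : A.TI W
      · rw [if_pos hW', if_pos hW', step W hW' (Finset.ne_of_mem_erase hW), mul_comm]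
      · rw [if_neg hW', if_neg hW']
    rw [Finset.sum_congr rfl hrest, if_pos hTI, if_pos hTI, finrank_bot, wt_zero, one_mul, mul_one] at h1
    rw [finrank_bot]
    exact (add_right_cancel h1).symm

end Cfsg.Agent.UnipCount
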